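import Cfsg.Agent.Lib.L2S.Defs
import Cfsg.Agent.Lib.Perm.PermModule
import Cfsg.Agent.Lib.FF.EAGL

/-! Affine groups without translations act on eight points. -/

set_option autoImplicit false

namespace H25.L2

open Subgroup H4.YM H4.TL Matrix MatrixGroups

variable {G : Type*} [Group G] [Finite G] {F : Type*} [Field F] [Finite F]

/-- `H4.TL.Aff` with `odd` replaced by `Kd` -/
structure Aff' {V : Type*} [CommGroup V] (X K : Subgroup (Equiv.Perm V)) : Prop where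
  sq : ∀ v : V, v * v = 1
  four : 4 ≤ Nat.card V
  aff : ∀ x ∈ X, ∀ u v, x (u * v) = x u * x v * x 1
  notr : ∀ x ∈ X, (∀ u, x u * x 1 = u) → x = 1
  tr : ∀ u, ∃ x ∈ X, x 1 = u
  KX : K ≤ X
  K1 : ∀ k ∈ K, k 1 = 1
  Ktr : ∀ u v, u ≠ 1 → v ≠ 1 → ∃ k ∈ K, k u = v
  Kc : ∀ a ∈ K, ∀ b ∈ K, a * b = b * a
  Kn : ∀ x ∈ X, x 1 = 1 → ∀ k ∈ K, x * k * x⁻¹ ∈ K
  Kd : ∀ x ∈ X, ∀ y ∈ X, x 1 = 1 → y 1 = 1 → x * y * x⁻¹ * y⁻¹ ∈ K

namespace Aff'

variable {V : Type*} [CommGroup V] {X K : Subgroup (Equiv.Perm V)} (A : Aff' X K)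
include A

/-- the linear part -/
def lin : X →* Equiv.Perm V where
  toFun x := (x : Equiv.Perm V).trans (Equiv.mulRight ((x : Equiv.Perm V) 1))
  map_one' := by ext; simp
  map_mul' x y := by
    ext u
    simp only [coe_mul, Equiv.Perm.coe_mul, Function.comp, Equiv.trans_apply, Equiv.coe_mulRight]
    rw [A.aff x x.2, mul_assoc, A.sq, mul_one]

theorem lin_apply (x : X) (u : V) : A.lin x u = (x : Equiv.Perm V) u * (x : Equiv.Perm V) 1 := rfl

theorem Kreg {k : Equiv.Perm V} (hk : k ∈ K) {u : V} (hu : u ≠ 1) (h : k u = u) : k = 1 := by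
  ext v
  by_cases hv : v = 1
  · simp [hv, A.K1 k hk]
  obtain ⟨k', hk', rfl⟩ := A.Ktr u v hu hv
  have := congrArg (fun y : Equiv.Perm V => y u) (A.Kc k hk k' hk')
  simpa [h] using this

theorem Kext {k k' : Equiv.Perm V} (hk : k ∈ K) (hk' : k' ∈ K) {u : V} (hu : u ≠ 1)
    (h : k u = k' u) : k = k' := by
  have := A.Kreg (K.mul_mem (K.inv_mem hk') hk) hu (by simp [h])
  exact (inv_mul_eq_one.1 this).symm

theorem Kcomm {k c : Equiv.Perm V} (hk : k ∈ K) (hc : c ∈ X) (h1 : c 1 = 1) {u : V} (hu : u ≠ 1)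
    (h : c u = u) (h' : c (k u) = k u) : c * k = k * c := by
  have := A.Kext (A.Kn c hc h1 k hk) hk hu (by
    have : c⁻¹ u = u := Equiv.Perm.inv_eq_iff_eq.2 h.symm
    simp only [Equiv.Perm.coe_mul, Function.comp, this, h'])
  exact mul_inv_eq_iff_eq_mul.1 this

theorem pgV : IsPGroup 2 V := fun v => ⟨1, by simpa [pow_two] using A.sq v⟩

variable [Finite V]

theorem cardV : ∃ n, 2 ≤ n ∧ Nat.card V = 2 ^ n := by
  obtain ⟨n, hn⟩ := IsPGroup.iff_card.1 A.pgV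
  refine ⟨n, ?_, hn⟩
  have := A.four
  rw [hn] at this
  exact (Nat.pow_le_pow_iff_right (by norm_num : 1 < 2)).1 this

theorem two_dvd : 2 ∣ Nat.card V := by
  obtain ⟨n, h, e⟩ := A.cardV
  exact e ▸ dvd_pow_self _ (by omega)

theorem o2 {N : Subgroup X} [hn : N.Normal] (hN : IsPGroup 2 N) : N = ⊥ := by
  obtain ⟨u, hu, hu1⟩ := (hN.map A.lin).exists_fixed_point_of_prime_dvd_card_of_fixed_point V
    A.two_dvd (a := 1) (fun ⟨_, x, _, rfl⟩ => A.sq _)
  refine eq_bot_iff.2 fun x hx => Subtype.ext (A.notr x x.2 fun v => ?_)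
  by_cases hv : v = 1
  · rw [hv, A.sq]
  obtain ⟨k, hk, rfl⟩ := A.Ktr u v hu1.symm hv
  have h1 : A.lin ((⟨k, A.KX hk⟩ : X)⁻¹ * x * ⟨k, A.KX hk⟩) u = u :=
    hu ⟨_, _, hn.conj_mem' x hx _, rfl⟩
  have h2 : ∀ w, A.lin ⟨k, A.KX hk⟩ w = k w := fun w => by simp [A.lin_apply, A.K1 k hk]
  rw [map_mul, map_mul, map_inv, Equiv.Perm.mul_apply, Equiv.Perm.mul_apply,
    Equiv.Perm.inv_eq_iff_eq, h2] at h1
  exact h1

theorem fix_two {x f : Equiv.Perm V} (hx : x ∈ X) (hf : f ∈ X) (xx : x * x = 1) (x1 : x 1 ≠ 1)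
    (f1 : f 1 = 1) (inv : cj x f = f⁻¹) (fo : Odd (orderOf f)) (hf1 : f ≠ 1) :
    f (x 1) = x 1 ∧ ∀ w, f w = w → w = 1 ∨ w = x 1 := by
  have xxw : ∀ w, x (x w) = w := fun w => by
    simpa using congrArg (fun y : Equiv.Perm V => y w) xx
  have e0 : f * x = x * f⁻¹ := by
    rw [← inv, cj, ← mul_assoc, ← mul_assoc, xx, one_mul, inv_eq_of_mul_eq_one_right xx]
  have fx : ∀ w, f w = w → f (x w) = x w := fun w hw => by
    have := congrArg (fun y : Equiv.Perm V => y w) e0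
    have h2 : f⁻¹ w = w := Equiv.Perm.inv_eq_iff_eq.2 hw.symm
    simpa only [Equiv.Perm.coe_mul, Function.comp, h2] using this
  refine ⟨fx 1 f1, fun w hw => ?_⟩
  by_contra hc
  push Not at hc
  have hw' : x w ≠ 1 := fun e => hc.2 (by rw [← e, xxw])
  obtain ⟨k, hk, ek⟩ := A.Ktr (x 1) w x1 hc.1
  obtain ⟨k', hk', ek'⟩ := A.Ktr (x w) (x 1) hw' x1
  have c1 := A.Kcomm hk hf f1 x1 (fx 1 f1) (by rw [ek, hw])
  have c2 := A.Kcomm hk' hf f1 hw' (fx w hw) (by rw [ek', fx 1 f1])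
  have c1' : cj k f = f := cj_eq_iff.2 c1.symm
  have c2' : cj k' f = f := cj_eq_iff.2 c2.symm
  have hz : cj (x * k' * x * k * x) f = f⁻¹ := by
    simp only [mul_cj, inv, cj_inv, c1', inv_inv, c2']
  have hzX : x * k' * x * k * x ∈ X :=
    X.mul_mem (X.mul_mem (X.mul_mem (X.mul_mem hx (A.KX hk')) hx) (A.KX hk)) hx
  have h1 := A.Kd _ hzX f hf (by simp [ek, ek', xxw]) f1
  rw [show ∀ z, z * f * z⁻¹ = cj z f from fun _ => rfl, hz, ← _root_.mul_inv_rev, inv_mem_iff] at h1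
  exact hf1 (eq_one_of_sq_odd (A.Kreg h1 x1 (by simp [fx 1 f1])) fo)

omit [Finite V] in
theorem pre : MulAction.IsPretransitive X V := ⟨fun a b => by
  obtain ⟨y, hy, rfl⟩ := A.tr a
  obtain ⟨z, hz, rfl⟩ := A.tr b
  exact ⟨⟨z * y⁻¹, X.mul_mem hz (X.inv_mem hy)⟩, by simp [Subgroup.smul_def]⟩⟩

omit [Finite V] in
theorem V_dvd : Nat.card V ∣ Nat.card X :=
  haveI := A.pre
  MulAction.index_stabilizer_of_transitive X (1 : V) ▸ index_dvd_card _

theorem exists_xf : ∃ x ∈ X, ∃ f ∈ X, x * x = 1 ∧ x 1 ≠ 1 ∧ f 1 = 1 ∧ cj x f = f⁻¹ ∧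
    (orderOf f).Prime ∧ Odd (orderOf f) := by
  haveI := A.pre
  obtain ⟨n, -, hn⟩ := A.cardV
  obtain ⟨P⟩ : Nonempty (Sylow 2 X) := inferInstance
  have hT := H26.sylow_isPretransitive hn P
  obtain ⟨x, -, xx0, x1, hc⟩ := exists_central P.isPGroup' (P.ne_bot_of_dvd_card
    (A.two_dvd.trans A.V_dvd))
  have hx : orderOf x = 2 := orderOf_eq_prime (by rw [pow_two, xx0]) x1
  have nf : ∀ a, (x : Equiv.Perm V) a ≠ a := fun a e => x1 (Subtype.ext (Equiv.ext fun b => by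
    obtain ⟨g, rfl⟩ := hT.exists_smul_eq a b
    have := congrArg (fun y : X => (y : Equiv.Perm V) a) (cj_eq_iff.1 (hc g g.2))
    simpa [e, Subgroup.smul_def] using this.symm))
  obtain ⟨h, h1, ho, hi⟩ := Cfsg.Agent.S0200.result x hx (fun N hN hP hxN => by
    rw [A.o2 hP, mem_bot] at hxN
    rw [hxN, orderOf_one] at hx
    exact absurd hx (by decide))
  have hp := Nat.minFac_prime (mt orderOf_eq_one_iff.1 h1)
  set p := (orderOf h).minFac
  have hpd : p ∣ orderOf h := Nat.minFac_dvd _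
  have hf : orderOf (h ^ (orderOf h / p)) = p := orderOf_pow_orderOf_div (orderOf_pos h).ne' hpd
  set f := h ^ (orderOf h / p)
  have hfi : cj x f = f⁻¹ := by rw [cj_pow, cj, hi, inv_pow]
  haveI := Fact.mk hp
  have hP : IsPGroup p (zpowers f) := IsPGroup.of_card (n := 1) (by rw [Nat.card_zpowers, hf, pow_one])
  obtain ⟨a, ha⟩ := hP.nonempty_fixed_point_of_prime_not_dvd_card V (by
    rw [hn]
    intro e
    rw [(Nat.prime_dvd_prime_iff_eq hp Nat.prime_two).1 (hp.dvd_of_dvd_pow e)] at hpd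
    exact ho.not_two_dvd_nat hpd)
  obtain ⟨y, hy, rfl⟩ := A.tr a
  have ha' : (f : Equiv.Perm V) (y 1) = y 1 := ha ⟨f, mem_zpowers f⟩
  have xx : (x : Equiv.Perm V) * x = 1 := by
    rw [← coe_mul, ← pow_two, ← hx, pow_orderOf_eq_one, coe_one]
  have hm : ∀ z : X, cj y⁻¹ (z : Equiv.Perm V) ∈ X := fun z => cj_mem (X.inv_mem hy) z.2
  have hord : ∀ z : X, orderOf (cj y⁻¹ (z : Equiv.Perm V)) = orderOf z := fun z => by
    rw [← Subgroup.orderOf_coe z]
    exact (orderOf_injective (MulAut.conj y⁻¹).toMonoidHom (MulAut.conj y⁻¹).injective _)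
  refine ⟨_, hm x, _, hm f, cj_sq xx, fun e => ?_, by simp [cj, ha'], ?_, by rw [hord, hf]; exact hp,
    by rw [hord, hf]; exact ho.of_dvd_nat hpd⟩
  · exact nf (y 1) (by simpa [cj, Equiv.symm_apply_eq] using e)
  · rw [cj_cj, ← cj_inv]
    exact congrArg _ (congrArg Subtype.val hfi)

theorem trs_norm : X ≤ normalizer (trs V : Set (Equiv.Perm V)) := fun x hx =>
  mem_norm.2 fun _ ⟨u, e⟩ => ⟨x u * x 1, by
    rw [← e]
    ext w
    obtain ⟨w, rfl⟩ := x.surjective w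
    simp [cj, A.aff x hx, mul_right_comm]⟩

theorem trs_comm {c : Equiv.Perm V} (hc : c ∈ X) (h1 : c 1 = 1) (u : V) :
    MulAction.toPermHom V V u * c = c * MulAction.toPermHom V V u ↔ c u = u := by
  constructor
  · intro h
    simpa [h1] using (congrArg (fun y : Equiv.Perm V => y 1) h).symm
  · intro h
    ext w
    simp [A.aff c hc, h, h1]

theorem card_trs_cen {c : Equiv.Perm V} (hc : c ∈ X) (h1 : c 1 = 1) :
    Nat.card (trs V ⊓ centralizer {c} : Subgroup _) = {u | c u = u}.ncard := by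
  rw [← Set.ncard_image_of_injective _ (MulAction.toPerm_injective (α := V) (β := V)),
    ← SetLike.coe_sort_coe, Nat.card_coe_set_eq]
  congr 1
  ext g
  simp only [coe_inf, Set.mem_inter_iff, SetLike.mem_coe, mem_centralizer_singleton_iff,
    Set.mem_image, Set.mem_setOf_eq]
  exact ⟨fun ⟨⟨u, e⟩, h⟩ => ⟨u, (A.trs_comm hc h1 u).1 (e ▸ h), e⟩,
    fun ⟨u, h, e⟩ => ⟨⟨u, e⟩, e ▸ (A.trs_comm hc h1 u).2 h⟩⟩

theorem card_K_cen {c : Equiv.Perm V} (hc : c ∈ X) (h1 : c 1 = 1) {a : V} (ha : a ≠ 1)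
    (h : c a = a) : Nat.card (K ⊓ centralizer {c} : Subgroup _) = {u | c u = u}.ncard - 1 := by
  rw [← Set.ncard_diff_singleton_of_mem (s := {u | c u = u}) h1, ← SetLike.coe_sort_coe,
    Nat.card_coe_set_eq]
  refine Set.ncard_congr (fun k _ => k a) (fun k hk => ⟨?_, ?_⟩)
    (fun k k' hk hk' e => A.Kext hk.1 hk'.1 ha e) (fun u hu => ?_)
  · have := congrArg (fun y : Equiv.Perm V => y a) (mem_centralizer_singleton_iff.1 hk.2)
    simpa [h] using this.symm
  · exact fun e => ha (k.injective (e.trans (A.K1 k hk.1).symm))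
  · obtain ⟨k, hk, e⟩ := A.Ktr a u ha hu.2
    exact ⟨k, ⟨hk, mem_centralizer_singleton_iff.2 (A.Kcomm hk hc h1 ha h (e ▸ hu.1)).symm⟩, e⟩

theorem card_K : Nat.card K = Nat.card V - 1 := by
  obtain ⟨u, u1, -⟩ := exists_third A.four 1 1 1
  have := A.card_K_cen X.one_mem rfl u1 rfl
  rwa [inf_eq_left.2 fun k _ => mem_centralizer_singleton_iff.2 (by simp),
    show {u : V | (1 : Equiv.Perm V) u = u} = Set.univ from by simp, Set.ncard_univ] at this

theorem card_prime : ∃ p, p.Prime ∧ Odd p ∧ p ∣ Nat.card X ∧ Nat.card V = 2 ^ p := by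
  obtain ⟨x, hx, f, hf, xx, x1, f1, inv, hp, fo⟩ := A.exists_xf
  have hE : ∀ e ∈ zpowers f, e ∈ X ∧ e 1 = 1 ∧ cj x e = e⁻¹ := fun e he => by
    obtain ⟨n, rfl⟩ := (mem_powers_iff_mem_zpowers.2 he)
    exact ⟨X.pow_mem hf n, Equiv.Perm.pow_apply_eq_self_of_apply_eq_self f1 n,
      by simp only [cj_pow, inv, inv_pow]⟩
  have hO : ∀ e ∈ zpowers f, Odd (orderOf e) := fun e he => fo.of_dvd_nat (orderOf_dvd_of_mem_zpowers he)
  have hf1 : f ≠ 1 := fun e => by rw [e, orderOf_one] at hp; exact Nat.not_prime_one hp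
  have hle : K ⊔ zpowers f ≤ X ⊓ MulAction.stabilizer _ (1 : V) :=
    sup_le (fun k hk => ⟨A.KX hk, A.K1 k hk⟩) fun e he => ⟨(hE e he).1, (hE e he).2.1⟩
  obtain ⟨n, n2, hn⟩ := A.cardV
  have := H53.Wielandt.frobenius_card_eq K (zpowers f) (trs V)
    (eq_bot_iff.2 fun e he => by
      by_contra h
      exact h (A.Kreg he.1 x1 (A.fix_two hx (hE e he.2).1 xx x1 (hE e he.2).2.1 (hE e he.2).2.2 (hO e he.2) h).1))
    (fun e he => A.Kn e (hE e he).1 (hE e he).2.1)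
    (fun e he h k hk hc => by
      obtain ⟨h1, h2⟩ := A.fix_two hx (hE e he).1 xx x1 (hE e he).2.1 (hE e he).2.2 (hO e he) h
      refine A.Kreg hk x1 ((h2 _ ?_).resolve_left fun e => x1 (k.injective (e.trans (A.K1 k hk).symm)))
      simpa [h1] using congrArg (fun y : Equiv.Perm V => y (x 1)) hc)
    ((hle.trans inf_le_left).trans A.trs_norm)
    (isSolvable_of_comm fun ⟨a, u, e⟩ ⟨b, v, e'⟩ => Subtype.ext (by
      show a * b = b * a
      rw [← e, ← e', ← map_mul, ← map_mul, mul_comm]))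
    (by
      rw [card_trs, hn]
      refine Nat.Coprime.pow_left _ (Nat.coprime_two_left.2 (Odd.of_dvd_nat ?_ (H3.card_sup_dvd
        fun e he => mem_norm.2 (A.Kn e (hE e he).1 (hE e he).2.1))))
      rw [A.card_K, hn, Nat.card_zpowers]
      exact (Nat.Even.sub_odd (Nat.two_pow_pos n) (even_two.pow_of_ne_zero (by omega)) odd_one).mul fo)
    (eq_bot_iff.2 fun g ⟨⟨u, e⟩, hg⟩ => by
      by_cases hu : u = 1
      · rw [← e, hu, map_one]; exact one_mem _
      obtain ⟨w, w1, w2, -⟩ := exists_third A.four 1 u u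
      obtain ⟨k, hk, ek⟩ := A.Ktr u w hu w1
      exact absurd (ek.symm.trans ((A.trs_comm (A.KX hk) (A.K1 k hk) u).1
        (e ▸ (hg k hk).symm))) w2)
  refine ⟨_, hp, fo, orderOf_dvd_natCard (G := X) ⟨f, hf⟩ |> (Subgroup.orderOf_mk f hf).symm.dvd.trans, ?_⟩
  rw [card_trs, Nat.card_zpowers, zpowers_eq_closure, centralizer_closure,
    A.card_trs_cen hf f1] at this
  rw [this, ← Set.ncard_pair x1.symm]
  congr 2
  obtain ⟨h1, h2⟩ := A.fix_two hx hf xx x1 f1 inv fo hf1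
  ext w
  exact ⟨h2 w, fun h => by rcases h with rfl | rfl <;> assumption⟩

theorem three {g : Equiv.Perm V} (hg : g ∈ X) {a b c : V} (h1 : a ≠ b) (h2 : b ≠ c) (h3 : a ≠ c)
    (ha : g a = a) (hb : g b = b) (hc : g c = c) : g = 1 := by
  obtain ⟨y, hy, rfl⟩ := A.tr a
  obtain ⟨b, rfl⟩ := y.surjective b
  obtain ⟨c, rfl⟩ := y.surjective c
  have hm : cj y⁻¹ g ∈ X := cj_mem (X.inv_mem hy) hg
  have fx : ∀ w, g (y w) = y w → cj y⁻¹ g w = w := fun w hw => by simp [cj, hw]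
  rw [← cj_eq_one (g := y⁻¹)]
  set f := cj y⁻¹ g
  have b1 : b ≠ 1 := fun e => h1 (by rw [e])
  obtain ⟨p, hp, -, -, hV⟩ := A.card_prime
  obtain ⟨k, hk⟩ := pg_card (pg_le (IsPGroup.of_card (card_trs.trans hV))
    (inf_le_left : trs V ⊓ centralizer {f} ≤ trs V))
  rw [A.card_trs_cen hm (fx 1 ha)] at hk
  have e1 := A.card_K_cen hm (fx 1 ha) b1 (fx b hb)
  have e2 := A.card_K_cen X.one_mem rfl b1 rfl
  have e3 : Nat.card (K ⊓ centralizer {f} : Subgroup _) ∣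
      Nat.card (K ⊓ centralizer {1} : Subgroup _) :=
    card_dvd_of_le fun k hk => ⟨hk.1, mem_centralizer_singleton_iff.2 (by simp)⟩
  rw [e1, e2, hk, show {u : V | (1 : Equiv.Perm V) u = u} = Set.univ from by simp, Set.ncard_univ,
    hV] at e3
  have e4 := Nat.gcd_eq_left e3
  rw [Nat.pow_sub_one_gcd_pow_sub_one] at e4
  have e5 : 2 ^ k.gcd p = 2 ^ k := by
    have := Nat.two_pow_pos (k.gcd p)
    have := Nat.two_pow_pos k
    omega
  rcases hp.eq_one_or_self_of_dvd k (Nat.pow_right_injective le_rfl e5 ▸ Nat.gcd_dvd_right k p)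
    with rfl | rfl
  · exfalso
    have : ({1, b, c} : Set V) ⊆ {u | f u = u} := by
      rintro w (rfl | rfl | rfl)
      exacts [fx 1 ha, fx _ hb, fx _ hc]
    have h4 := Set.ncard_le_ncard this
    rw [hk, Set.ncard_eq_three.2 ⟨1, b, c, b1.symm, fun e => h3 (by rw [e]),
      fun e => h2 (by rw [e]), rfl⟩] at h4
    omega
  · have := Set.eq_of_subset_of_ncard_le (Set.subset_univ {u | f u = u})
      (by rw [hk, Set.ncard_univ, hV])
    ext w
    exact (this ▸ Set.mem_univ w : w ∈ {u | f u = u})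

theorem odd {x : Equiv.Perm V} (hx : x ∈ X) (x1 : x 1 = 1) : Odd (orderOf x) := by
  rw [← Nat.not_even_iff_odd, even_iff_two_dvd]
  intro h2
  have hg := orderOf_pow_orderOf_div (orderOf_pos x).ne' h2
  have gX := X.pow_mem hx (orderOf x / 2)
  have g1 := Equiv.Perm.pow_apply_eq_self_of_apply_eq_self x1 (orderOf x / 2)
  generalize x ^ (orderOf x / 2) = g at hg gX g1
  have gg : ∀ u, g (g u) = u := fun u => by
    have := congrArg (fun y : Equiv.Perm V => y u) (pow_orderOf_eq_one g)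
    rwa [hg, pow_two] at this
  let φ : V →* V := MonoidHom.mk' (fun u => g u * u) fun u v => by
    rw [A.aff g gX, g1, mul_one, mul_mul_mul_comm]
  have k : ∀ u ∈ φ.ker, g u = u := fun u h =>
    (eq_inv_of_mul_eq_one_left h).trans (inv_eq_of_mul_eq_one_left (A.sq u))
  have h1 : Nat.card φ.range ≤ Nat.card φ.ker := card_le_of_le (by
    rintro _ ⟨u, rfl⟩
    change g (g u * u) * (g u * u) = 1
    rw [A.aff g gX, g1, mul_one, gg, mul_comm u, A.sq])
  have h3 := φ.ker.card_mul_index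
  obtain ⟨p, hp, po, -, hV⟩ := A.card_prime
  have h4 : 2 ^ 3 ≤ 2 ^ p := Nat.pow_le_pow_right two_pos (by
    have := hp.two_le; obtain ⟨k, rfl⟩ := po; omega)
  rw [index_ker, hV] at h3
  haveI := Fintype.ofFinite φ.ker
  obtain ⟨a, b, c, e1, e2, e3⟩ := Fintype.two_lt_card_iff.1 (show 2 < Fintype.card φ.ker by
    rw [← Nat.card_eq_fintype_card]; nlinarith)
  rw [A.three gX (Subtype.coe_ne_coe.2 e1) (Subtype.coe_ne_coe.2 e3) (Subtype.coe_ne_coe.2 e2)
    (k _ a.2) (k _ b.2) (k _ c.2), orderOf_one] at hg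
  exact absurd hg (by decide)

theorem toAff : Aff X K :=
  ⟨A.sq, A.four, A.aff, A.notr, A.tr, fun _ => A.odd, A.KX, A.K1, A.Ktr, A.Kc, A.Kn⟩

/-- the linear part as an automorphism -/
def aut : X →* MulAut V where
  toFun x := ⟨A.lin x, fun u v => by
    simp only [Equiv.toFun_as_coe, A.lin_apply]
    rw [A.aff x x.2, mul_assoc, A.sq, mul_one, mul_mul_mul_comm, A.sq, mul_one]⟩
  map_one' := MulEquiv.ext fun u => congrArg (fun y : Equiv.Perm V => y u) (map_one A.lin)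
  map_mul' x y := MulEquiv.ext fun u => congrArg (fun y : Equiv.Perm V => y u) (map_mul A.lin x y)

omit [Finite V] in
theorem aut_inj : Function.Injective A.aut := (injective_iff_map_eq_one _).2 fun x h =>
  Subtype.ext (A.notr x x.2 fun u => congrArg (fun y : MulAut V => y u) h)

end Aff'

/-- the order of a `2`-element of `GL_n(2)` -/
theorem gl_pow {n m j : ℕ} {M : Matrix (Fin n) (Fin n) (ZMod 2)} (h : M ^ 2 ^ m = 1) (hj : n ≤ 2 ^ j) :
    M ^ 2 ^ j = 1 := by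
  have h2 : ∀ a : Matrix (Fin n) (Fin n) (ZMod 2), a + a = 0 := fun a => by
    ext i j; exact CharTwo.add_self_eq_zero _
  have k : ∀ i : ℕ, (M + 1) ^ 2 ^ i = M ^ 2 ^ i + 1 := fun i => by
    induction i with
    | zero => simp
    | succ i ih =>
      rw [pow_succ 2, pow_mul, pow_mul, ih, pow_two, pow_two, add_mul, mul_add, mul_add, mul_one, one_mul,
        mul_one, add_assoc, ← add_assoc (M ^ 2 ^ i), h2, zero_add]
  have h3 : IsNilpotent (Matrix.toLinAlgEquiv' (M + 1)) :=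
    IsNilpotent.map ⟨2 ^ m, by rw [k, h, h2]⟩ _
  have h4 := LinearMap.aeval_self_charpoly (Matrix.toLinAlgEquiv' (M + 1))
  rw [h3.charpoly_eq_X_pow_finrank, map_pow, Polynomial.aeval_X, ← map_pow, map_eq_zero_iff _
    (AlgEquiv.injective _), Module.finrank_fin_fun] at h4
  have h5 := pow_eq_zero_of_le hj h4
  rw [k] at h5
  exact add_right_cancel (h5.trans (h2 1).symm)

/-- a large cyclic subgroup -/
theorem dih_cyc {L : Type*} [Group L] [Finite L] {j : L} {R : Subgroup L} (D : H29.DihInv j R)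
    [IsCyclic R] {P : Subgroup L} (hP : IsPGroup 2 P) : ∃ ρ ∈ P, Nat.card P ≤ 2 * orderOf ρ := by
  by_cases h : P = ⊥
  · exact ⟨1, P.one_mem, by simp [h]⟩
  obtain ⟨z, -, zz, z1, hz⟩ := exists_central hP h
  obtain ⟨g, hg⟩ := D.conj z zz z1
  haveI : IsCyclic (cm g⁻¹ P ⊓ R : Subgroup L) := Subgroup.isCyclic_of_le inf_le_right
  obtain ⟨ρ, hρ⟩ := IsCyclic.exists_ofOrder_eq_natCard (α := (cm g⁻¹ P ⊓ R : Subgroup L))
  refine ⟨cj g ρ, by simpa using mem_cm.1 ρ.2.1, ?_⟩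
  have h1 : cm g⁻¹ P ≤ centralizer {j} := fun x hx => mem_centralizer_singleton_iff.2 (cj_inj g (by
    rw [cj_mul, cj_mul, show cj g j = z from hg, cj_eq_iff.1 (hz _ (by simpa using mem_cm.1 hx))]))
  have h2 : R ≤ centralizer {j} := fun r hr => mem_centralizer_singleton_iff.2 (D.le r hr).symm
  have h3 : R.relIndex (centralizer {j}) = 2 := by
    have := (R.subgroupOf (centralizer {j})).card_mul_index
    rw [Nat.card_congr (subgroupOfEquivOfLe h2).toEquiv, D.card, mul_comm 2] at this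
    exact Nat.eq_of_mul_eq_mul_left Nat.card_pos this
  have h4 := relIndex_le_of_le_right h1 (by rw [h3]; decide : R.relIndex _ ≠ 0)
  have h5 := (R.subgroupOf (cm g⁻¹ P)).card_mul_index
  rw [← inf_subgroupOf_right, Nat.card_congr (subgroupOfEquivOfLe inf_le_right).toEquiv,
    inf_subgroupOf_right, inf_comm, ← hρ, card_cm] at h5
  rw [show orderOf (cj g (ρ : L)) = orderOf ρ from ((MulAut.conj g).orderOf_eq _).trans
    (Subgroup.orderOf_coe ρ), ← h5, mul_comm]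
  exact Nat.mul_le_mul_right _ (h4.trans_eq h3)

theorem Aff'.eight {V : Type*} [CommGroup V] [Finite V] {X K : Subgroup (Equiv.Perm V)}
    (A : Aff' X K) : Nat.card V = 8 ∧ ∀ α : MulAut V, ∃ x ∈ X, ∀ u, x u * x 1 = α u := by
  obtain ⟨p, hp, po, pX, hV⟩ := A.card_prime
  obtain ⟨e⟩ := H23.nonempty_mulAut_equiv_GL (W := V) (p := 2) ⟨⟨mul_comm⟩⟩
    (fun w => by rw [pow_two, A.sq]) hV
  obtain rfl : p = 3 := by
    by_contra p3
    obtain ⟨F, _, _, h2, ⟨ε⟩⟩ := A.toAff.psl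
    have h2' : (2 : F) ≠ 0 := Ring.two_ne_zero h2
    haveI := H29.isCyclic_rotPSL h2'
    obtain ⟨P⟩ : Nonempty (Sylow 2 X) := inferInstance
    obtain ⟨_, ⟨r, hr, rfl⟩, hρ⟩ := dih_cyc (H29.dihInv_psl h2') (P.isPGroup'.map ε.toMonoidHom)
    obtain ⟨m, hm⟩ := pg_pow P.isPGroup' hr
    obtain ⟨q, rfl⟩ : ∃ q, p = q + 4 := ⟨p - 4, by have := hp.two_le; obtain ⟨k, rfl⟩ := po; omega⟩
    have h3 : r ^ 2 ^ (q + 2) = 1 := A.aut_inj (e.injective (Units.ext (by
      simp only [map_pow, map_one, Units.val_pow_eq_pow_val, Units.val_one]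
      refine gl_pow (m := m) (by rw [← Units.val_pow_eq_pow_val, ← map_pow, ← map_pow, hm]; simp) ?_
      have := q.lt_two_pow_self
      rw [pow_add]
      omega)))
    have h4 := Nat.le_of_dvd (Nat.two_pow_pos _) (orderOf_dvd_of_pow_eq_one h3)
    have h5 := Nat.le_of_dvd Nat.card_pos (P.pow_dvd_card_of_pow_dvd_card (hV ▸ A.V_dvd))
    rw [card_map_of_injective ε.injective, MulEquiv.coe_toMonoidHom, ε.orderOf_eq] at hρ
    have := Nat.two_pow_pos q
    rw [pow_add] at h4 h5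
    omega
  refine ⟨hV, fun α => ?_⟩
  have h1 : Nat.card (MulAut V) = 168 := by
    rw [Nat.card_congr e.toEquiv, Matrix.card_GL_field]
    simp [Fin.prod_univ_three]
  have h2 := card_dvd_of_le A.KX
  have h3 := A.V_dvd
  rw [A.card_K, hV] at h2
  rw [hV] at h3
  obtain ⟨x, rfl⟩ := ((Nat.bijective_iff_injective_and_card _).2 ⟨A.aut_inj, le_antisymm
    (Nat.card_le_card_of_injective _ A.aut_inj) (h1.trans_le (Nat.le_of_dvd Nat.card_pos
      (by omega)))⟩).2 α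
  exact ⟨x, x.2, fun _ => rfl⟩

end H25.L2
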