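import Cfsg.Agent.Lib.L2S.Defs
import Cfsg.Agent.Lib.NGrp.Small
import Cfsg.Agent.Lib.Comp.Quasisimple
import Cfsg.Agent.Lib.Core.PCore

/-! Small involution centralisers in `L₃(r)` and `U₃(r)`. -/

set_option autoImplicit false
set_option linter.style.haveILetI false
set_option linter.unusedSectionVars false

namespace H25.L2

open Subgroup H4.YM H4.TL Matrix MatrixGroups

namespace AU3B

open Cfsg H3.NG H11.U

theorem bound {L H K : Type*} [Group L] [Finite L] [Group H] [Field K] [Finite K]
    (hone : ∀ a b : L, orderOf a = 2 → orderOf b = 2 → IsConj a b) {z : L} (hz : orderOf z = 2)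
    (h120 : Nat.card (commutator (centralizer ({z} : Set L) ⧸
      oddCore (centralizer ({z} : Set L)))) ≤ 120) (e : L ≃* H ⧸ center H) {ψ : SL(2, K) →* H}
    (hψ : Function.Injective ψ) {d : H} (h1 : d ∉ center H) (h2 : d * d = 1)
    (hc : ∀ k, Commute (ψ k) d) (h4 : 4 ≤ Nat.card K) : Nat.card K ≤ 6 := by
  obtain ⟨g, hg⟩ := isConj_iff.1 (hone _ _ (order_two_of e h1 h2) hz)
  let f0 : SL(2, K) →* L := (MulAut.conj g).toMonoidHom.comp
    (e.symm.toMonoidHom.comp ((QuotientGroup.mk' _).comp ψ))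
  let f1 : SL(2, K) →* (centralizer {z} : Subgroup L) := f0.codRestrict _ fun k =>
    mem_centralizer_singleton_iff.2 (hg ▸
      ((((hc k).map (QuotientGroup.mk' _)).map e.symm).map (MulAut.conj g)))
  let f := (QuotientGroup.mk' (oddCore (centralizer ({z} : Set L)))).comp f1
  have hp := H10.commutator_SL_fin_eq_top (F := K) 2 fun _ => h4
  have hq : IsQuasisimple SL(2, K) := ⟨⟨hp⟩, H10.isSimpleGroup_PSL_fin 2 le_rfl fun _ => h4⟩
  have hk : f.ker ≤ center _ := (H23.IsQuasisimple.normal_eq_top_or_le_center hq f.ker).resolve_left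
    fun h => by
      let w : SL(2, K) := ⟨!![0, 1; -1, 0], by simp [det_fin_two]⟩
      have w4 : w ^ 4 = 1 := Subtype.ext (by
        change w.1 ^ 4 = 1
        simp [w, pow_succ, ← one_fin_two])
      have a1 : f1 w ∈ oddCore (centralizer ({z} : Set L)) :=
        (QuotientGroup.eq_one_iff _).1 (MonoidHom.mem_ker.1 (h ▸ mem_top w))
      have a2 := (H1.coprime_orderOf_of_mem_pPrimeCore a1).pow_right 2
      have a3 : f1 w = 1 := orderOf_eq_one_iff.1 (a2.eq_one_of_dvd
        (orderOf_dvd_of_pow_eq_one (by rw [← map_pow, show 2 ^ 2 = 4 from rfl, w4, map_one])))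
      have a4 : e.symm (ψ w : H ⧸ center H) = 1 := (MulAut.conj g).map_eq_one_iff.1
        (congrArg Subtype.val a3)
      rw [map_eq_one_iff _ e.symm.injective, QuotientGroup.eq_one_iff] at a4
      have a5 : uu 1 * w = w * uu 1 := hψ (by rw [map_mul, map_mul, mem_center_iff.1 a4])
      have : ((uu (1 : K)).1 * w.1) 0 0 = (w.1 * (uu (1 : K)).1) 0 0 :=
        congrArg (fun M : SL(2, K) => M.1 0 0) a5
      simp [w, uu] at this
  have hr : f.range ≤ commutator _ := by
    rw [MonoidHom.range_eq_map, ← hp, _root_.commutator_def, map_commutator]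
    exact commutator_mono le_top le_top
  have c1 := (card_le_of_le hr).trans h120
  have c2 := card_le_of_le hk
  rw [H10.card_center_SL] at c2
  have c3 := c2.trans (Nat.gcd_le_left _ (by simp))
  have c4 := f.ker.card_mul_index
  rw [index_ker, H10.card_SL_two] at c4
  have c5 := Nat.mul_le_mul c3 c1
  rw [c4, Fintype.card_fin] at c5
  by_contra h7
  obtain ⟨n, hn⟩ : ∃ n, Nat.card K = n + 7 := ⟨Nat.card K - 7, by omega⟩
  rw [hn, show n + 7 - 1 = n + 6 from rfl] at c5
  have := Nat.mul_le_mul (Nat.mul_le_mul (Nat.le_add_left 7 n) (Nat.le_add_left 6 n))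
    (Nat.le_add_left 8 n)
  rw [show n + 7 + 1 = n + 8 from rfl] at c5
  omega

end AU3B

open AU3B Cfsg H3.NG H11.U in
/-- small involution centralisers in `L₃(r)`, `U₃(r)` -/
theorem four_of_small {L : Type*} [Group L] [Finite L]
    (hone : ∀ a b : L, orderOf a = 2 → orderOf b = 2 → IsConj a b) {z : L} (hz : orderOf z = 2)
    (h120 : Nat.card (commutator (centralizer ({z} : Set L) ⧸
      Cfsg.oddCore (centralizer ({z} : Set L)))) ≤ 120) (h5 : 5 ∣ Nat.card L)
    (h : (∃ (E : Type) (_ : Field E) (_ : Fintype E), Odd (Fintype.card E) ∧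
        Nonempty (L ≃* ProjectiveSpecialLinearGroup (Fin 3) E)) ∨
      ∃ (E : Type) (_ : Field E) (_ : Fintype E) (q : ℕ), Fintype.card E = q ^ 2 ∧ Odd q ∧
        Nonempty (L ≃* Cfsg.PSU 3 E q)) : Four L := by
  rcases h with ⟨E, _, _, ho, ⟨e⟩⟩ | ⟨E, _, _, q, hq, ho, ⟨e⟩⟩
  · have h3 : Fintype.card E ≠ 3 := fun h => by
      have := H10.card_PSL_fin (F := E) 3 (by norm_num)
      rw [← Nat.card_congr e.toEquiv, Nat.card_eq_fintype_card (α := E), h] at this
      simp [Fin.prod_univ_three] at this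
      omega
    have h1 := Fintype.one_lt_card (α := E)
    have h2 := Nat.odd_iff.1 ho
    have := bound hone hz h120 e emb_inj (fun h => by
      obtain ⟨r, -, hr⟩ := Matrix.SpecialLinearGroup.mem_center_iff.1 h
      exact neg_one_cube (two_ne_zero_of_odd ho)
        (cube_of_dg (c := r) (by rw [← hr, scalar_apply, smul_one_eq_diagonal]))) dg_sq
      (fun k => emb_dg k _ _) (by rw [Nat.card_eq_fintype_card]; omega)
    rw [Nat.card_eq_fintype_card] at this
    exact .inr (.inr (.inr (.inr (.inr (.inr (.inl ⟨E, _, _, by omega, .inl ⟨e⟩⟩))))))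
  · haveI : IsSq E q := ⟨hq⟩
    have h3 : q ≠ 3 := fun h => by
      subst h
      have a1 := card_GU (F := E) (q := 3) (n := 3)
      rw [card_GU_eq_mul_card_SU (by norm_num), card_SU_eq_mul_card_PSU (by norm_num),
        ← Nat.card_congr e.toEquiv] at a1
      simp [Finset.prod_range_succ] at a1
      omega
    have h1 := two_le_q E q
    have h2 := Nat.odd_iff.1 ho
    haveI := Fintype.ofFinite (fixedField E q)
    obtain ⟨f⟩ := Cfsg.Agent.S0281.result (F := E) (K := fixedField E q) hq
      (by rw [← Nat.card_eq_fintype_card, card_fixedField])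
    have := bound hone hz h120 e (ψ := (embU E q).comp f.symm.toMonoidHom)
      (embU_inj.comp f.symm.injective) (d := dgU (a := -1) (by simp) (by simp)) (fun hc => by
        obtain ⟨c, hc⟩ := (mem_center_SU_iff (by norm_num)).1 hc
        exact neg_one_cube (two_ne_zero_of_odd (hq ▸ ho.pow)) (cube_of_dg (ha := by simp) hc))
      (Subtype.ext dg_sq) (fun k => embU_dgU _ _ _) (by rw [card_fixedField]; omega)
    rw [card_fixedField] at this
    obtain rfl : q = 5 := by omega
    exact .inr (.inr (.inr (.inr (.inr (.inl ⟨E, _, _, hq, .inr ⟨e⟩⟩)))))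

end H25.L2
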