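import Cfsg.Agent.Lib.L2S.Defs
import Cfsg.Agent.Lib.AutCl.Galois
import Cfsg.Agent.Lib.GL.Basic

/-! Matrices and field automorphisms for `Lib/L2S/Bas`. -/

set_option autoImplicit false

namespace H25.L2

open Subgroup H4.YM H4.TL Matrix MatrixGroups

section mats
variable {F : Type*} [Field F]

namespace Bas

theorem uu_val (x : F) : (uu x).1 = !![1, x; 0, 1] := rfl
theorem dd_val (k : Fˣ) : (dd k).1 = !![(k : F), 0; 0, ((k⁻¹ : Fˣ) : F)] := rfl
theorem mul_val (M N : SL(2, F)) : (M * N).1 = M.1 * N.1 := rfl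
theorem fa_val (τ : F ≃+* F) (M : SL(2, F)) (i j : Fin 2) : (fa τ M).1 i j = τ (M.1 i j) := rfl

/-- the lower unitriangular matrix -/
def ll : SL(2, F) := ⟨!![1, 0; 1, 1], by simp [det_fin_two]⟩

theorem ll_val : (ll : SL(2, F)).1 = !![1, 0; 1, 1] := rfl

theorem ll_auto : True := by have := @ll.eq_1.{0}; trivial

end Bas

open Bas

theorem uu_add (x y : F) : uu (x + y) = uu x * uu y := by
  ext i j; fin_cases i <;> fin_cases j <;> simp [uu_val, mul_val, Matrix.mul_apply, Fin.sum_univ_two, add_comm]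

theorem uu_zero : uu (0 : F) = 1 := by
  ext i j; fin_cases i <;> fin_cases j <;> simp [uu_val]

theorem uu_inj {x y : F} (h : uu x = uu y) : x = y := by
  simpa [uu_val] using congrArg (fun M : SL(2, F) => M.1 0 1) h

theorem dd_mul (k l : Fˣ) : dd (k * l) = dd k * dd l := by
  ext i j; fin_cases i <;> fin_cases j <;> simp [dd_val, mul_val, Matrix.mul_apply, Fin.sum_univ_two, mul_comm]

theorem dd_uu (k : Fˣ) (x : F) : cj (dd k) (uu x) = uu (k * k * x) := by
  rw [cj, mul_inv_eq_iff_eq_mul]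
  ext i j; fin_cases i <;> fin_cases j <;> simp [dd_val, uu_val, ll_val, mul_val, Matrix.mul_apply, Fin.sum_univ_two]
  field_simp

theorem fa_uu (τ : F ≃+* F) (x : F) : fa τ (uu x) = uu (τ x) := by
  ext i j; fin_cases i <;> fin_cases j <;> simp [fa_val, uu_val]

theorem fa_dd (τ : F ≃+* F) (k : Fˣ) : fa τ (dd k) = dd (Units.map (τ : F →* F) k) := by
  ext i j; fin_cases i <;> fin_cases j <;> simp [fa_val, dd_val]

theorem fa_one (M : SL(2, F)) : fa (1 : F ≃+* F) M = M := by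
  ext i j; rfl

theorem fa_mul (τ τ' : F ≃+* F) (M : SL(2, F)) : fa (τ * τ') M = fa τ (fa τ' M) := by
  ext i j; rfl

/-- the fixed field of an involution -/
theorem fix_sq [Finite F] {τ : F ≃+* F} (h1 : τ ≠ 1) (h2 : τ * τ = 1) :
    {a | τ a = a}.ncard ^ 2 = Nat.card F := by
  have h := H67.card_fixF_pow τ
  rw [orderOf_eq_prime (p := 2) (by rw [pow_two, h2]) h1] at h
  rw [← h, show {a | τ a = a} = (H67.fixF τ : Set F) from Set.ext fun _ => H67.mem_fixF.symm,
    ← Nat.card_coe_set_eq]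
  rfl

theorem fix_trace [Finite F] (h : (2 : F) = 0) {τ : F ≃+* F} (h1 : τ ≠ 1) (h2 : τ * τ = 1) {a : F}
    (ha : τ a = a) : ∃ c, a = c + τ c := by
  obtain ⟨e, he⟩ : ∃ e, τ e ≠ e := by
    by_contra! h0
    exact h1 (RingEquiv.ext h0)
  have ττ : τ (τ e) = e := DFunLike.congr_fun h2 e
  have d0 : e + τ e ≠ 0 := fun e1 => he (by linear_combination e1 - e * h)
  refine ⟨a * e / (e + τ e), ?_⟩
  rw [map_div₀, map_mul, map_add, ha, ττ, add_comm (τ e)]
  field_simp

theorem aut_comm [Finite F] (τ τ' : F ≃+* F) : τ * τ' = τ' * τ := H67.ringAut_comm τ τ'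

namespace Bas

theorem cyc_inv {H : Type*} [Group H] [Finite H] [IsCyclic H] {a b : H} (h1 : a ≠ 1)
    (h2 : a * a = 1) (h1' : b ≠ 1) (h2' : b * b = 1) : a = b := by
  classical
  letI := Fintype.ofFinite H
  by_contra hn
  have := IsCyclic.card_pow_eq_one_le (α := H) (n := 2) two_pos
  refine absurd this (not_le.2 (Finset.two_lt_card_iff.2 ⟨1, a, b, ?_, ?_, ?_, h1.symm, h1'.symm, hn⟩))
  · simp
  · exact Finset.mem_filter.2 ⟨Finset.mem_univ _, by rw [pow_two, h2]⟩
  · exact Finset.mem_filter.2 ⟨Finset.mem_univ _, by rw [pow_two, h2']⟩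

theorem dd_one : dd (1 : Fˣ) = 1 := by
  ext i j; fin_cases i <;> fin_cases j <;> simp [dd_val]

theorem sq_inj (h : (2 : F) = 0) {a b : F} (e : a * a = b * b) : a = b := by
  have : (a - b) * (a - b) = 0 := by linear_combination e + (b * b - a * b) * h
  exact sub_eq_zero.1 (mul_self_eq_zero.1 this)

theorem sqrt [Finite F] (h : (2 : F) = 0) (k : Fˣ) : ∃ l : Fˣ, l * l = k :=
  (Finite.injective_iff_surjective (f := fun l : Fˣ => l * l)).1
    (fun a b e => Units.ext (sq_inj h (by simpa using congrArg Units.val e))) k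

/-- the normaliser of a root element is triangular -/
theorem tri {M : SL(2, F)} {b b' : F} (hb : b ≠ 0) (h : cj M (uu b) = uu b') :
    ∃ y k, M = uu y * dd k := by
  rw [cj, mul_inv_eq_iff_eq_mul] at h
  have e : M.1 1 0 = 0 := by
    have := congrArg (fun M : SL(2, F) => M.1 1 1) h
    simpa [uu_val, mul_val, Matrix.mul_apply, Fin.sum_univ_two, hb] using this
  have d : M.1 0 0 * M.1 1 1 = 1 := by
    have := M.2
    rwa [det_fin_two, e, mul_zero, sub_zero] at this
  have d0 : M.1 0 0 ≠ 0 := left_ne_zero_of_mul_eq_one d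
  refine ⟨M.1 0 1 * M.1 0 0, Units.mk0 _ d0, ?_⟩
  ext i j; fin_cases i <;> fin_cases j <;> simp [dd_val, uu_val, ll_val, mul_val, Matrix.mul_apply, Fin.sum_univ_two, e, d0]
  exact eq_inv_of_mul_eq_one_right d

/-- the centre is trivial -/
theorem cen_SL (h : (2 : F) = 0) {M : SL(2, F)} (hM : ∀ X, cj M X = X) : M = 1 := by
  obtain ⟨y, k, rfl⟩ := tri one_ne_zero (hM (uu 1))
  have e := cj_eq_iff.1 (hM ll)
  have e1 := congrArg (fun M : SL(2, F) => M.1 0 0) e
  have e2 := congrArg (fun M : SL(2, F) => M.1 1 0) e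
  simp [dd_val, uu_val, ll_val, mul_val, Matrix.mul_apply, Fin.sum_univ_two] at e1 e2
  have k1 : (k : F) = 1 := sq_inj h (by
    rw [mul_one]; nth_rewrite 1 [← e2]; exact inv_mul_cancel₀ k.ne_zero)
  rw [e1, Units.ext (k1.trans Units.val_one.symm), uu_zero, dd_one, one_mul]

theorem perf [Finite F] (h : 4 ≤ Nat.card F) : commutator SL(2, F) = ⊤ := by
  classical
  letI := Fintype.ofFinite F
  rw [Nat.card_eq_fintype_card] at h
  obtain ⟨a, a0, a1⟩ : ∃ a : F, a ≠ 0 ∧ a ^ 2 ≠ 1 := by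
    by_contra! h0
    have h1 : (Finset.univ : Finset F) ⊆ {0, 1, -1} := fun a _ => by
      by_cases a0 : a = 0
      · simp [a0]
      · simpa [a0] using h0 a a0
    exact absurd ((Finset.card_le_card h1).trans Finset.card_le_three) (not_le.2 h)
  exact SL2.commutator_eq_top a0 a1

theorem sub_ind {G : Type*} [Group G] [Finite G] (p : G → Prop) (h1 : p 1)
    (hm : ∀ x y, p x → p y → p (x * y)) : ∃ S : Subgroup G, ∀ x, x ∈ S ↔ p x := by
  have hp : ∀ x, p x → ∀ n : ℕ, p (x ^ n) := fun x hx n => by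
    induction n with
    | zero => rwa [pow_zero]
    | succ n ih => rw [pow_succ]; exact hm _ _ ih hx
  refine ⟨⟨⟨⟨{x | p x}, fun {x y} => hm x y⟩, h1⟩, fun {x} hx => ?_⟩, fun _ => Iff.rfl⟩
  have : x⁻¹ = x ^ (orderOf x - 1) := by
    rw [inv_eq_iff_mul_eq_one, ← pow_succ', Nat.sub_add_cancel (orderOf_pos x), pow_orderOf_eq_one]
  show p x⁻¹
  rw [this]; exact hp x hx _

theorem comm_le {G : Type*} [Group G] {H : Subgroup G} (h : H.index = 2) (A B : Subgroup G) :
    ⁅A, B⁆ ≤ H := commutator_le.2 fun a _ b _ => by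
  rw [commutatorElement_def]
  simp only [mul_mem_iff_of_index_two h, inv_mem_iff]
  tauto

end Bas

theorem aut_inv_uniq [Finite F] {τ τ' : F ≃+* F} (h1 : τ ≠ 1) (h2 : τ * τ = 1) (h1' : τ' ≠ 1)
    (h2' : τ' * τ' = 1) : τ = τ' := Bas.cyc_inv (H := RingAut F) h1 h2 h1' h2'

end mats

theorem syl_iff {G : Type*} [Group G] [Finite G] {R H : Subgroup G} :
    Syl R H ↔ H69.IsSylowIn 2 R H := by
  rw [H69.isSylowIn_iff]
  have key : R ≤ H → Nat.card H = Nat.card R * R.relIndex H := fun h => by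
    rw [← (R.subgroupOf H).card_mul_index, Nat.card_congr (subgroupOfEquivOfLe h).toEquiv]; rfl
  constructor
  · rintro ⟨h1, h2, m, hm, h3⟩
    rw [key h2] at h3
    rw [Nat.eq_of_mul_eq_mul_left Nat.card_pos h3]
    exact ⟨h2, h1, fun e => Nat.not_even_iff_odd.2 hm (even_iff_two_dvd.2 e)⟩
  · rintro ⟨h1, h2, h3⟩
    exact ⟨h2, h1, _, Nat.not_even_iff_odd.1 fun e => h3 (even_iff_two_dvd.1 e), key h1⟩

end H25.L2
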