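import Cfsg.Agent.Lib.L2S.Defs

/-!
The case `q = 4`.
-/

set_option autoImplicit false

namespace H25.L2

open Subgroup H4.YM H4.TL Matrix MatrixGroups

variable {G : Type*} [Group G] {F : Type*} [Field F]

/-- `e` is an involution of `T` inducing the field automorphism of `SL₂(4)` -/
structure Fr.Q4 (X : Fr G F) (τ : F ≃+* F) (e : G) : Prop where
  four : Nat.card F = 4
  τ1 : τ ≠ 1
  ee : e * e = 1
  eT : e ∈ X.T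
  eφ : ∀ M, cj e (X.φ M) = X.φ (fa τ M)

/-- the homocyclic case -/
structure Fr.Z4 (X : Fr G F) (τ : F ≃+* F) (s : G) (Y : Subgroup G) : Prop extends X.Q4 τ s where
  R2 : ∀ ρ ∈ X.R, ρ = 1 ∨ ρ = X.t
  nV : ∀ a, ¬ X.Ω (X.v a)
  sΩ : X.Ω s
  VY : X.V ≤ Y
  YL : Y ≤ X.L
  card : Nat.card Y = 16
  sq : ∀ y ∈ Y, y * y ∈ X.V
  om : ∀ y ∈ Y, y * y = 1 → y ∈ X.V
  inv : ∀ y ∈ Y, cj X.t y = y⁻¹
  sY : ∀ y ∈ Y, cj s y ∈ Y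
  alt : ¬ X.Ω (X.t * s) ∨ ∀ y ∈ Y, X.Ω (X.t * y) → y ∈ X.V

end H25.L2
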