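import Cfsg.Agent.Lib.L2S.Bas
import Cfsg.Agent.Lib.Core.HallSZ

/-! Standard subgroups of type `SL₂(q)`, `q` even: the Sylow subgroup of `C(t)`. -/

set_option autoImplicit false

namespace H25.L2

open Subgroup H4.YM H4.TL Matrix MatrixGroups

variable {G : Type*} [Group G] {F : Type*} [Field F]

namespace Loc

theorem cyc_aut (K : Type*) [Field K] [CharP K 2] [Finite K] : IsCyclic (K ≃+* K) := by
  have : Fact (Nat.Prime 2) := ⟨Nat.prime_two⟩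
  let := ZMod.algebra K 2
  let A : (K ≃+* K) →* (K ≃ₐ[ZMod 2] K) :=
    { toFun := fun σ => AlgEquiv.ofRingEquiv (f := σ) fun x => DFunLike.congr_fun
        (RingHom.ext_zmod ((σ : K →+* K).comp (algebraMap _ _)) (algebraMap _ _)) x
      map_one' := rfl
      map_mul' := fun _ _ => rfl }
  exact isCyclic_of_injective A fun σ τ e => RingEquiv.ext fun a => DFunLike.congr_fun e a

/-- the elements of `C(t)` inducing field automorphisms -/
def C1 (X : Hyp G F) : Subgroup G where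
  carrier := {c | cj c X.t = X.t ∧ ∃ τ : F ≃+* F, ∀ M, cj c (X.φ M) = X.φ (fa τ M)}
  one_mem' := ⟨one_cj _, 1, fun M => by rw [one_cj, fa_one]⟩
  mul_mem' := by
    rintro a b ⟨h1, τ, h2⟩ ⟨h3, τ', h4⟩
    exact ⟨by rw [mul_cj, h3, h1], τ * τ', fun M => by rw [mul_cj, h4, h2, fa_mul]⟩
  inv_mem' := by
    rintro a ⟨h1, τ, h2⟩
    exact ⟨inv_cj_eq.2 h1, τ⁻¹, fun M => inv_cj_eq.2 (by
      rw [h2, ← fa_mul, mul_inv_cancel, fa_one])⟩

theorem loc_auto : True := by have := @C1.eq_1.{0,0}; trivial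

theorem uniq (X : Hyp G F) {c : G} {τ τ' : F ≃+* F} (h : ∀ M, cj c (X.φ M) = X.φ (fa τ M))
    (h' : ∀ M, cj c (X.φ M) = X.φ (fa τ' M)) : τ = τ' :=
  RingEquiv.ext fun a => uu_inj (by
    rw [← fa_uu, ← fa_uu]; exact X.inj ((h (uu a)).symm.trans (h' _)))

theorem K_le (X : Hyp G F) : X.K ≤ C1 X := fun _ hx =>
  ⟨(X.mem_K.1 hx).1, 1, fun M => by rw [fa_one, (X.mem_K.1 hx).2]⟩

theorem V_inf (X : Hyp G F) : X.V ⊓ C1 X = ⊥ := by
  refine eq_bot_iff.2 fun x ⟨h1, _, τ, h⟩ => ?_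
  obtain ⟨a, rfl⟩ := X.mem_V.1 h1
  obtain rfl : τ = 1 := RingEquiv.ext fun b => X.v_inj (by
    rw [Hyp.v, ← fa_uu, ← h]; exact X.v_comm a b)
  let M : SL(2, F) := ⟨!![1, 0; 1, 1], by simp [det_fin_two]⟩
  have := h M
  rw [fa_one, cj_eq_iff, Hyp.v, ← map_mul, ← map_mul] at this
  have e : (uu a).1 * M.1 = M.1 * (uu a).1 := congrArg Subtype.val (X.inj this)
  have := congrFun (congrFun e 0) 0
  simp [M, uu, Matrix.mul_apply, Fin.sum_univ_two] at this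
  exact mem_bot.2 (X.v_eq_one.2 this)

theorem cen_eq (X : Hyp G F) : centralizer {X.t} = X.A0 ⊔ C1 X := by
  refine le_antisymm (fun c hc => ?_) (sup_le ?_ fun c hc => mem_cen.2 hc.1)
  · obtain ⟨M, τ, h⟩ := X.aut c (mem_cen.1 hc)
    rw [← mul_inv_cancel_left (X.φ M) c]
    refine mul_mem_sup ⟨M, rfl⟩ ⟨?_, τ, fun Y => ?_⟩
    · rw [mul_cj, mem_cen.1 hc, inv_cj_eq, cj_comm, X.tφ]
    · rw [mul_cj, h, inv_cj_eq]; simp [cj]
  · rintro _ ⟨M, rfl⟩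
    exact mem_cen.2 (cj_comm.1 (X.tφ M))

variable [Finite G]

theorem syl_inf {R H K : Subgroup G} (S : Syl R H) (hK : K ≤ H)
    (hn : ∀ h ∈ H, ∀ k ∈ K, cj h k ∈ K) : Syl (R ⊓ K) K := by
  obtain ⟨P, hP, SP⟩ := exists_syl (S.pg.to_inf_left (K := K)) inf_le_right
  obtain ⟨h, hh, e⟩ := S.conj SP.pg (SP.le.trans hK)
  have : cm h⁻¹ P ≤ R ⊓ K := fun x hx => by
    rw [mem_cm, inv_inv] at hx
    exact ⟨cj_mem_cm.1 (e hx), inv_cj_cj h x ▸ hn _ (inv_mem hh) _ (SP.le hx)⟩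
  rwa [eq_of_le_of_card_ge hP (card_cm h⁻¹ P ▸ card_le_of_le this)]

theorem norm_V (X : Hyp G F) : C1 X ≤ normalizer (X.V : Set G) := fun c ⟨_, τ, h⟩ =>
  mem_norm.2 fun x hx => by
    obtain ⟨a, rfl⟩ := X.mem_V.1 hx
    rw [Hyp.v, h, fa_uu]
    exact X.v_mem_V _

theorem syl_sup [Finite F] (X : Hyp G F) {T : Subgroup G} (S : Syl T (C1 X)) :
    Syl (X.V ⊔ T) (centralizer {X.t}) := by
  have hN := S.le.trans (norm_V X)
  have hle : X.V ⊔ T ≤ centralizer {X.t} := cen_eq X ▸ sup_le_sup X.V_le_A0 S.le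
  obtain ⟨m, hm⟩ := card_dvd_of_le hle
  refine ⟨X.sylV.pg.to_sup_of_normal_left' S.pg hN, hle, m, ?_, hm⟩
  obtain ⟨m0, o0, e0⟩ := X.sylV.odd
  obtain ⟨m1, o1, e1⟩ := S.odd
  have := H3.card_sup_dvd (N := X.A0) (K := C1 X) fun c hc =>
    mem_norm.2 fun x hx => X.C_A0 hc.1 hx
  rw [← cen_eq, hm, H3.card_sup_of_inf_eq_bot hN (eq_bot_iff.2
    ((inf_le_inf_left _ S.le).trans (V_inf X).le)), e0, e1, mul_mul_mul_comm,
    Nat.mul_dvd_mul_iff_left (mul_pos Nat.card_pos Nat.card_pos)] at this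
  exact (o0.mul o1).of_dvd_nat this

end Loc

open Loc

variable [Finite G] [Finite F]

theorem Hyp.exists_fr (X : Hyp G F) : ∃ Z : Fr G F, Z.toHyp = X := by
  have : Fact (Nat.Prime 2) := ⟨Nat.prime_two⟩
  have : CharP F 2 := CharTwo.of_one_ne_zero_of_two_eq_zero one_ne_zero X.char
  choose τ hτ using fun c : C1 X => c.2.2
  let ψ : C1 X →* (F ≃+* F) := MonoidHom.mk' τ fun a b => uniq X (hτ _) fun M => by
    rw [coe_mul, mul_cj, hτ, hτ, fa_mul]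
  have ker : ∀ c : C1 X, ψ c = 1 → (c : G) ∈ X.K := fun c e =>
    X.mem_K.2 ⟨c.2.1, fun M => by rw [hτ, show τ c = 1 from e, fa_one]⟩
  obtain ⟨T, hT, S⟩ := exists_syl (pg_zpowers (k := 1) (x := X.t) (by simpa [sq] using X.tt))
    (zpowers_le.2 (K_le X X.t_K))
  have := cyc_aut F
  obtain ⟨⟨_, f, hf, rfl⟩, hσ⟩ := IsCyclic.exists_generator (α := (T.subgroupOf (C1 X)).map ψ)
  have hf' : (f : G) ∈ T := hf
  have e : adj (X.V ⊔ T ⊓ X.K) f = X.V ⊔ T := by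
    refine le_antisymm (adj_le (sup_le_sup_left inf_le_left _) (mem_sup_right hf'))
      (sup_le (le_sup_left.trans le_adj) fun x hx => ?_)
    obtain ⟨i, hi⟩ := hσ ⟨_, ⟨x, S.le hx⟩, hx, rfl⟩
    have hi' : ψ f ^ i = ψ ⟨x, S.le hx⟩ := congrArg Subtype.val hi
    have := ker (⟨x, S.le hx⟩ * (f ^ i)⁻¹) (by rw [map_mul, map_inv, map_zpow, hi', mul_inv_cancel])
    rw [← inv_mul_cancel_right x ((f : G) ^ i)]
    exact mul_mem (le_adj (mem_sup_right ⟨T.mul_mem hx (T.inv_mem (zpow_mem hf' i)), this⟩))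
      (zpow_mem self_mem_adj i)
  refine ⟨{ X with
    h := X.φ.comp ((MonoidHom.mk' dd dd_mul).comp
      (Units.map ((frobeniusEquiv F 2).symm : F →* F)))
    R := T ⊓ X.K
    f := f
    σ := ψ f
    hdd := fun k => ?_
    tR := ⟨hT (mem_zpowers _), X.t_K⟩
    Rsyl := syl_inf S (K_le X) fun h hh k hk => X.C_K hh.1 hk
    ft := f.2.1
    fφ := hτ f
    fR := fun ρ hρ => ⟨cj_mem hf' hρ.1, X.C_K f.2.1 hρ.2⟩
    fpow := fun i hi => ⟨pow_mem hf' i, ker (f ^ i) (by rw [map_pow, hi])⟩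
    syl := e ▸ syl_sup X S }, rfl⟩
  refine congrArg (fun k => X.φ (dd k)) (Units.ext ?_)
  exact (frobeniusEquiv F 2).symm_apply_eq.2 (by rw [frobeniusEquiv_def, sq]; rfl)

end H25.L2
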