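import Cfsg.Agent.Lib.L2S.NrC

/-! Dihedral groups normalised by `t` (blueprint/L2S, package NRB). -/

set_option autoImplicit false
set_option linter.unusedSectionVars false

namespace H25.L2

open Subgroup H4.YM H4.TL Matrix MatrixGroups

variable {G : Type*} [Group G] [Finite G] {F : Type*} [Field F] [Finite F]

namespace NRB

theorem inv_pow' {g y : G} (h : cj g y = y⁻¹) (n : ℕ) : cj g (y ^ n) = (y ^ n)⁻¹ := by
  rw [cj_pow, h, inv_pow]

theorem inv_zp {g y x : G} (h : cj g y = y⁻¹) (hx : x ∈ zpowers y) : cj g x = x⁻¹ := by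
  obtain ⟨n, rfl⟩ := (Submonoid.mem_powers_iff _ _).1 (mem_powers_iff_mem_zpowers.2 hx)
  exact inv_pow' h n

theorem inv_prod {a b : G} (aa : a * a = 1) (bb : b * b = 1) : cj a (a * b) = (a * b)⁻¹ := by
  rw [_root_.mul_inv_rev, inv_eq_of_mul_eq_one_right bb]
  calc cj a (a * b) = a * a * b * a⁻¹ := by unfold cj; group
    _ = _ := by rw [aa, one_mul]

theorem inv_prod' {a b : G} (aa : a * a = 1) (bb : b * b = 1) : cj b (a * b) = (a * b)⁻¹ := by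
  rw [_root_.mul_inv_rev, inv_eq_of_mul_eq_one_right bb, inv_eq_of_mul_eq_one_right aa]
  unfold cj; group

theorem inv_t {t j : G} (tt : t * t = 1) (jj : j * j = 1) : cj t (j * cj t j) = (j * cj t j)⁻¹ := by
  rw [cj_mul, ← mul_cj, tt, one_cj, _root_.mul_inv_rev, inv_eq_of_mul_eq_one_right jj,
    inv_eq_of_mul_eq_one_right (cj_sq jj)]

theorem c_eq {t j : G} (tt : t * t = 1) (jj : j * j = 1) : t * cj j t = cj t j * j := by
  unfold cj
  rw [inv_eq_of_mul_eq_one_right jj, inv_eq_of_mul_eq_one_right tt]; group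

theorem c_eq' {t j : G} (tt : t * t = 1) (jj : j * j = 1) : t * cj j t = (j * cj t j)⁻¹ := by
  rw [c_eq tt jj, _root_.mul_inv_rev, inv_eq_of_mul_eq_one_right jj, inv_eq_of_mul_eq_one_right (cj_sq jj)]

theorem pow_even {d : G} (h : d * d * (d * d) = 1) {e : ℕ} (he : Even e) (h1 : d ^ e ≠ 1) :
    d * d = d ^ e := by
  obtain ⟨n, rfl⟩ := he
  rw [← two_mul, pow_mul, pow_two] at h1 ⊢
  rcases Nat.even_or_odd' n with ⟨k, rfl | rfl⟩
  · exact absurd (by rw [pow_mul, pow_two, h, one_pow]) h1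
  · rw [pow_succ, pow_mul, pow_two, h, one_pow, one_mul]

end NRB

namespace Fr.NS

open NRB NRC

variable {X : Fr G F} {A S : Subgroup G} {e : ℕ} (D : X.NS A e S)
include D

theorem cls2 {z : G} (hz : z ∈ X.V) (z1 : z ≠ 1) {j : G} (jj : j * j = 1) (h1 : cj j z = z)
    (h2 : cj (cj X.t j) z = z) {n : ℕ} (hn : (j * cj X.t j) ^ 2 ^ n = 1) :
    j ∈ normalizer (adj A X.t : Set G) := by
  have i1 := inv_prod jj (cj_sq (g := X.t) jj)
  refine D.cls (adj (zpowers (j * cj X.t j)) j) (pg_of_pow fun x hx => ?_) (adj_le_comap (fun k hk => ?_) ?_)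
    z hz z1 (fun x hx => mem_cen.1 (adj_le (zpowers_le.2 ?_) (mem_cen.2 h1) hx)) self_mem_adj
  · rcases (mem_adj (fun k hk => by rw [inv_zp i1 hk]; exact inv_mem hk)
      (by rw [jj]; exact one_mem _)).1 hx with h | h
    · exact pg_pow (pg_zpowers hn) h
    · refine ⟨1, ?_⟩
      have := inv_zp i1 h
      calc x ^ 2 ^ 1 = cj j (j⁻¹ * x) * (j * j) * (j⁻¹ * x) := by rw [pow_one, pow_two]; unfold cj; group
        _ = 1 := by rw [this, jj, mul_one, inv_mul_cancel]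
  · rw [inv_zp (inv_t X.tt jj) hk]; exact le_adj (inv_mem hk)
  · exact (Subgroup.mul_mem_cancel_left _ self_mem_adj).1 (le_adj (mem_zpowers _))
  · exact mul_mem (mem_cen.2 h1) (mem_cen.2 h2)

theorem dih {H : Subgroup G} (ht : ∀ x ∈ H, cj X.t x ∈ H) {z : G} (hz : z ∈ X.V)
    (z1 : z ≠ 1) (hc : ∀ x ∈ H, cj x z = z) {j : G} (hj : j ∈ H) (jj : j * j = 1) :
    ∃ k ∈ H, cj k j ∈ normalizer (adj A X.t : Set G) ∧
      cj k (X.t * cj (cj k j) X.t) = X.t * cj (cj k j) X.t ∧ cj X.t k = k⁻¹ ∧ cj (cj k j) k = k⁻¹ := by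
  set y := j * cj X.t j with hy
  obtain ⟨a, m, ⟨r, hr⟩, e⟩ := Nat.exists_eq_two_pow_mul_odd (orderOf_pos y).ne'
  have yH : y ∈ H := mul_mem hj (ht j hj)
  have i1 : cj j (y ^ (r * r + r)) = (y ^ (r * r + r))⁻¹ := inv_pow' (inv_prod jj (cj_sq jj)) _
  have i2 : cj X.t (y ^ (r * r + r)) = (y ^ (r * r + r))⁻¹ := inv_pow' (inv_t X.tt jj) _
  set k := y ^ (r * r + r) with hk
  have kH : k ∈ H := pow_mem yH _
  have ji : j⁻¹ = j := inv_eq_of_mul_eq_one_right jj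
  have e0 : j * k⁻¹ = k * j := by
    have : cj j k⁻¹ = k := by rw [cj_inv, i1, inv_inv]
    rw [← this, this]
    conv_rhs => rw [← this]
    unfold cj; group
  have e1 : cj k j = k * k * j := by unfold cj; rw [mul_assoc, e0, mul_assoc]
  have e2 : cj k j * cj X.t (cj k j) = y ^ (m * m) := by
    rw [e1, cj_mul, cj_mul, i2, show m * m = (r * r + r) + (r * r + r) + (r * r + r) + (r * r + r) + 1 by
      rw [hr]; ring, pow_succ, pow_add, pow_add, pow_add, ← hk, hy]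
    calc k * k * j * (k⁻¹ * k⁻¹ * cj X.t j) = k * k * (j * k⁻¹ * k⁻¹) * cj X.t j := by group
      _ = _ := by rw [e0, mul_assoc k j, e0]; group
  have j2 : cj k j * cj k j = 1 := cj_sq jj
  refine ⟨k, kH, D.cls2 hz z1 j2 (hc _ (cj_mem kH hj)) (hc _ (ht _ (cj_mem kH hj))) (n := a) ?_, ?_, i2, ?_⟩
  · rw [e2, ← pow_mul, ← orderOf_dvd_iff_pow_eq_one, e]
    exact ⟨m, by ring⟩
  · rw [c_eq' X.tt j2, e2, cj_inv, cj_eq_iff.2 (Commute.pow_pow_self y _ _)]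
  · conv_lhs => enter [2]; rw [← cj_eq_iff.2 (rfl : k * k = k * k)]
    rw [cj_cj, i1, cj_inv, cj_eq_iff.2 rfl]

theorem inv_cen {j : G} (hL : j ∈ X.L) (jj : j * j = 1) (h : ∀ u ∈ X.V, cj j u = u) : j ∈ X.V := by
  have mc : ∀ x, x ∈ centralizer (X.V : Set G) ↔ ∀ u ∈ X.V, cj x u = u := fun x =>
    mem_centralizer_iff.trans (forall₂_congr fun u _ => by rw [cj_eq_iff, eq_comm])
  obtain ⟨k, hk, h1, -⟩ := D.dih (H := X.L ⊓ centralizer (X.V : Set G)) (z := X.v 1)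
    (fun x hx => ⟨(X.L_cj _).2 hx.1, (mc _).2 fun u hu => by
      conv_lhs => rw [← t_V _ hu, cj_cj, (mc _).1 hx.2 u hu, t_V _ hu]⟩)
    (X.v_mem_V 1) (fun e => _root_.one_ne_zero (X.v_eq_one.1 e)) (fun x hx => (mc _).1 hx.2 _ (X.v_mem_V 1))
    (j := j) ⟨hL, (mc _).2 h⟩ jj
  have h2 : cj k j ∈ X.L ⊓ centralizer (X.V : Set G) := cj_mem hk ⟨hL, (mc _).2 h⟩
  have h3 := D.toGood.sqV (D.toNE.cenM_two h1 h2.1 ((mc _).1 h2.2) (j := 1)
    (by rw [pow_one, pow_two, cj_sq jj])) (cj_sq jj)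
  have h4 : cj k j = j := cj_inj k ((mc _).1 hk.2 _ h3)
  rwa [h4] at h3

/-- the dihedral group generated by `j` and `j ^ t` -/
theorem trick {H : Subgroup G} (hH : H ≤ X.L) (ht : ∀ x ∈ H, cj X.t x ∈ H) {z : G} (hz : z ∈ X.V)
    (z1 : z ≠ 1) (hc : ∀ x ∈ H, cj x z = z) {j : G} (hj : j ∈ H) (jj : j * j = 1) :
    j ∈ X.V ∨ ∃ k ∈ H, cj k j ∈ normalizer (adj A X.t : Set G) ∧ (¬ ∀ u ∈ X.V, cj (cj k j) u = u) ∧
      cj k (X.t * cj (cj k j) X.t) = X.t * cj (cj k j) X.t := by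
  obtain ⟨k, hk, h1, h2, h3, h4⟩ := D.dih ht hz z1 hc hj jj
  by_cases h : ∀ u ∈ X.V, cj (cj k j) u = u
  · have h5 := D.inv_cen (hH (cj_mem hk hj)) (cj_sq jj) h
    have h6 : cj k⁻¹ (X.t * cj k j) = X.t * cj k j := by
      rw [inv_cj_eq, ← cj_comm, mul_cj, h4, cj_inv, h3, inv_inv]
    have := D.toNE.cen_tv h5 h6 hz z1 (hc _ (inv_mem hk)) _ h5
    rw [inv_cj_cj] at this
    exact Or.inl this
  · exact Or.inr ⟨k, hk, h1, h, h2⟩

/-- if all involutions of `H` normalise `V` then `H` does -/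
theorem nrm (h : A ≠ X.V) {H : Subgroup G} (hH : H ≤ X.L) (ht : ∀ x ∈ H, cj X.t x ∈ H) (hA : A ≤ H)
    {z : G} (hz : z ∈ X.V) (z1 : z ≠ 1) (hc : ∀ x ∈ H, cj x z = z)
    (hj : ∀ j ∈ H, j * j = 1 → ∀ u ∈ X.V, cj j u ∈ X.V) : ∀ x ∈ H, ∀ u ∈ X.V, cj x u ∈ X.V := by
  intro x hx u hu
  by_contra fV
  have N := D.toNE
  have Gd := D.toGood
  set f := cj x u with hf
  set V' := cm x X.V with hV'
  have fV' : f ∈ V' := cj_mem_cm.2 hu
  have ff : f * f = 1 := cj_sq (V_sq _ hu)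
  have fi : f⁻¹ = f := inv_eq_of_mul_eq_one_right ff
  have fH : f ∈ H := cj_mem hx (hA (Gd.VA hu))
  have sq' : ∀ y ∈ V', y * y = 1 := fun y hy => by
    rw [← cj_inv_cj x y]; exact cj_sq (V_sq _ (mem_cm.1 hy))
  have nj : ∀ j ∈ H, j * j = 1 → j ∈ normalizer (V' : Set G) := fun j hjH jj => mem_norm.2 fun y hy => by
    rw [hV', mem_cm, ← cj_cj]
    exact hj _ (cj_mem (inv_mem hx) hjH) (cj_sq jj) _ (mem_cm.1 hy)
  have nf := nj f fH ff
  -- products `j * f` have their squares in `V'`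
  have sqm : ∀ j ∈ H, j * j = 1 → j * f * (j * f) ∈ V' := fun j hjH jj => by
    have := mul_mem (mem_norm.1 (nj j hjH jj) f fV') fV'
    rwa [show cj j f * f = j * f * (j⁻¹ * f) by unfold cj; group, inv_eq_of_mul_eq_one_right jj] at this
  have tf := cj_sq (g := X.t) ff
  have fM : f ∈ normalizer (adj A X.t : Set G) := by
    refine D.cls2 hz z1 ff (hc f fH) (hc _ (ht f fH)) (n := 2) ?_
    rw [← inv_eq_one, ← inv_pow, ← c_eq' X.tt ff, c_eq X.tt ff, show 2 ^ 2 = 2 * 2 by rfl, pow_mul,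
      pow_two, pow_two]
    exact sq' _ (sqm _ (ht f fH) tf)
  have nc : ¬ ∀ u ∈ X.V, cj f u = u := fun e => fV (D.inv_cen (hH fH) ff e)
  have f2 : ∀ u ∈ X.V, cj (f * f) u = u := fun u _ => by rw [ff, one_cj]
  obtain ⟨d0, hd0, d1, -, ⟨u0, hu0, e0⟩, -⟩ := e8_fix N.card8 (fun u hu => V_sq _ hu) (N.nrcV fM) f2 nc
  obtain ⟨h0, hh0, e1⟩ := N.eS u0 hu0
  have fh0 := Gd.NA fM hh0
  have ev := N.even_e h
  -- the element `d`
  have dV : d0 ∈ V' := by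
    have h1 : h0⁻¹ * cj f h0 = cj h0⁻¹ f * f := by unfold cj; rw [fi]; group
    have h2 := sqm _ (cj_mem (inv_mem (hA hh0)) fH) (cj_sq ff)
    rw [← h1] at h2
    have h3 : (h0⁻¹ * cj f h0) ^ e = d0 := by
      rw [N.pow_e (inv_mem hh0) fh0, inv_pow, ← cj_pow, e1, inv_eq_of_mul_eq_one_right (V_sq _ hu0), e0]
    rwa [pow_even (sq' _ h2) ev (h3 ▸ d1), h3] at h2
  -- the element `c`
  set c := X.t * cj f X.t with hcd
  have cA : c ∈ A := Gd.Nt fM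
  have ce : c = cj X.t f * f := c_eq X.tt ff
  have cn : c ∈ normalizer (V' : Set G) := ce ▸ mul_mem (nj _ (ht f fH) tf) nf
  have c2 : c * c ∈ V' := ce ▸ sqm _ (ht f fH) tf
  have b1 : c ^ e ≠ 1 := fun e => nc (N.nofix fM f2 (one_mem _) (by rw [cj_one, mul_one]; exact e))
  have bd : c ^ e ≠ d0 := fun e => nc (N.nofix fM f2 hu0 (e.trans e0.symm))
  have ce2 := pow_even (sq' _ c2) ev b1
  rw [← ce2] at b1 bd
  have bV : c * c ∈ X.V := Gd.sqV (mul_mem cA cA) (sq' _ c2)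
  have cf : cj c f = c * c * f := by
    have := inv_prod' tf ff
    rw [← ce] at this
    calc cj c f = c * cj f c⁻¹ * f := by unfold cj; group
      _ = _ := by rw [cj_inv, this, inv_inv]
  -- `V' = W ∪ f W`
  have dd := V_sq _ hd0
  have zV : zpowers d0 ≤ X.V := zpowers_le.2 hd0
  have i1 : Idx (zpowers d0) (adj (zpowers d0) (c * c)) (c * c) := idx_adj
    (fun e => ((mem_zp dd).1 e).elim b1 bd)
    (fun k hk => by rw [cj_eq_iff.2 (V_comm _ bV (zV hk))]; exact hk) (by rw [sq' _ c2]; exact one_mem _)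
  have WV : adj (zpowers d0) (c * c) ≤ X.V := adj_le zV bV
  have WV' : adj (zpowers d0) (c * c) ≤ V' := adj_le (zpowers_le.2 dV) c2
  have cm' : ∀ a ∈ V', ∀ b ∈ V', a * b = b * a := fun a ha b hb =>
    comm_of_sq (sq' a ha) (sq' b hb) (sq' _ (mul_mem ha hb))
  have i2 : Idx (adj (zpowers d0) (c * c)) (adj (adj (zpowers d0) (c * c)) f) f := idx_adj
    (fun e => fV (WV e)) (fun k hk => by rw [cj_eq_iff.2 (cm' _ fV' _ (WV' hk))]; exact hk)
    (by rw [ff]; exact one_mem _)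
  have eV : adj (adj (zpowers d0) (c * c)) f = V' := eq_of_le_of_card_ge (adj_le WV' fV') (by
    rw [i2.card, i1.card, Nat.card_zpowers, orderOf_eq_prime (p := 2) (by rw [pow_two, dd]) d1, card_cm,
      N.card8])
  -- the element `x0`
  have x0A : h0 * cj f h0 ∈ A := mul_mem hh0 fh0
  have x0c : ∀ y ∈ V', cj (h0 * cj f h0) y = y := fun y hy => by
    refine cj_comm.1 (mem_cen.1 (adj_le (L := centralizer {h0 * cj f h0})
      (fun w hw => mem_cen.2 (Gd.cjA (Gd.VA (WV hw)) x0A)) (mem_cen.2 ?_) (eV ▸ hy)))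
    rw [cj_mul, ← mul_cj, ff, one_cj, Gd.comm fh0 hh0]
  have x0e : (h0 * cj f h0) ^ e = d0 := by rw [N.pow_e hh0 fh0, ← cj_pow, e1, e0]
  have s1 : Syl (cm x S) (X.L ⊓ normalizer (V' : Set G)) := by
    have h1 := D.sylS.cm x
    rw [cm_eq_of_le (fun y hy => (X.L_cj x).2 hy) le_rfl] at h1
    refine h1.mono (le_inf h1.le fun y hy => ?_) inf_le_left
    rw [hV', ← cm_norm, mem_cm]
    exact mem_norm.2 (N.nrcV (D.SM (mem_cm.1 hy)))
  obtain ⟨n, hn, hle⟩ := s1.conj (X := A ⊓ normalizer (V' : Set G)) (pg_le Gd.pg inf_le_left)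
    (inf_le_inf_right _ Gd.A_le_L)
  rw [← cm_mul] at hle
  have gV : ∀ y, cj (n * x)⁻¹ y ∈ X.V ↔ y ∈ V' := fun y => by
    rw [← mem_cm, cm_mul, ← hV', mem_norm_iff.1 hn.2]
  have g1 := mem_cm.1 (hle ⟨cA, cn⟩)
  have x1 := mem_cm.1 (hle ⟨x0A, mem_norm.2 fun y hy => by rw [x0c y hy]; exact hy⟩)
  obtain ⟨i, hi⟩ := pg_pow D.sylS.pg x1
  have x1A := N.cenM_two (D.SM x1) (D.sylS.le x1) (fun y hy => by
    rw [← inv_cj_cj (n * x) y, cj_cj, x0c _ ((gV _).1 (by rw [inv_cj_cj]; exact hy))]) hi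
  obtain ⟨y, hy, e2⟩ := N.dfix h (D.SM g1) (by rw [← cj_mul, gV]; exact c2) (fun e => by
    have := cj_inj _ ((cj_cj _ _ _).symm.trans (e _ ((gV f).2 fV')))
    rw [cf, mul_eq_right] at this
    exact b1 this) x1A (by rw [cj_cj, Gd.cjA cA x0A])
  rw [← inv_cj_cj (n * x) y, cj_cj, ← cj_pow, ← cj_mul, x0e] at e2
  replace e2 := cj_inj _ e2
  have y' : cj (n * x) y ∈ V' := (gV _).1 (by rw [inv_cj_cj]; exact hy)
  rcases i2.cases (eV ▸ y') with hw | ⟨w, hw, e3⟩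
  · rw [Gd.cjA cA (Gd.VA (WV hw)), sq' _ y'] at e2
    exact d1 e2
  · rw [e3, cj_mul, cf, Gd.cjA cA (Gd.VA (WV hw)), mul_assoc (c * c), ← e3, cm' _ c2 _ y', ← mul_assoc,
      sq' _ y', one_mul] at e2
    exact bd e2.symm

end Fr.NS

end H25.L2
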