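import Cfsg.Agent.Lib.H4.TL1

/-!
A model of the group `(Z₄ × Z₄) ⋊ (Z₂ × Z₂)` of order `64`.
-/

set_option autoImplicit false

namespace H25.L2.QZ

open Subgroup H4.YM H4.TL

/-- coordinates -/
abbrev M : Type := ZMod 4 × ZMod 4 × Bool × Bool

/-- the sign -/
def sg (e : Bool) (i : ZMod 4) : ZMod 4 := if e then -i else i

/-- the multiplication -/
def m (x y : M) : M :=
  (x.1 + sg x.2.2.1 (if x.2.2.2 then y.2.1 else y.1),
    x.2.1 + sg x.2.2.1 (if x.2.2.2 then y.1 else y.2.1), xor x.2.2.1 y.2.2.1, xor x.2.2.2 y.2.2.2)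

/-- powers -/
def pw (x : M) : ℕ → M
  | 0 => (0, 0, false, false)
  | n + 1 => m (pw x n) x

/-- not an involution other than `z` -/
def good (x : M) : Prop := m x x = (0, 0, false, false) → x = (0, 0, false, false) ∨ x = (2, 2, false, false)

instance (x : M) : Decidable (good x) := by unfold good; infer_instance

/-- the quaternion subgroup -/
def q8 (x : M) : Prop := x.2.2.1 = x.2.2.2 ∧ x.1 = x.2.1 + (if x.2.2.1 then 2 else 0)

instance (x : M) : Decidable (q8 x) := by unfold q8; infer_instance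

theorem eqns : True := by
  have := @sg.eq_1; have := @m.eq_1; have := @pw.eq_1; have := @pw.eq_2; have := @pw.eq_def
  have := @good.eq_1; have := @q8.eq_1
  trivial

theorem d_inv : ∀ x y : M, m x (pw y 7) = (0, 0, false, false) ↔ x = y := by decide +kernel
theorem d_ev : ∀ i j : ZMod 4, (i = 0 ∧ j = 0) ∨ (i = 2 ∧ j = 0) ∨ (i = 0 ∧ j = 2) ∨ (i = 2 ∧ j = 2) ∨
    (i + i = 2 ∧ j + j = 0) ∨ (i + i = 0 ∧ j + j = 2) ∨ (i + i = 2 ∧ j + j = 2) := by decide
theorem d_Y : ∀ x : M, (m x (1, 1, false, false) = m (1, 1, false, false) x ∧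
    m x (1, 3, false, false) = m (1, 3, false, false) x) → x.2.2.1 = false ∧ x.2.2.2 = false := by
  decide +kernel
theorem d_sq : ∀ (x : M) (i j : ZMod 4),
    m (m x x) (i, j, false, false) = m (i, j, false, false) (m x x) := by decide +kernel
theorem d_t : ∀ x : M, m x x = (0, 0, false, false) →
    m (m x (1, 0, false, false)) (m x (1, 0, false, false)) = (0, 0, false, false) →
    x.2.2.1 = true ∧ x.2.2.2 = false := by decide +kernel
theorem d_s : ∀ x : M, m x x = (0, 0, false, false) → x.2.2.2 = true →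
    ∃ i : ZMod 4, m (i, 0, false, false) (0, 0, x.2.2.1, true) = m x (i, 0, false, false) := by
  decide +kernel
theorem d_cs : (Finset.univ.filter fun x : M =>
    m x (0, 0, false, true) = m (0, 0, false, true) x).card = 16 := by decide +kernel
set_option synthInstance.maxSize 4096 in
set_option synthInstance.maxHeartbeats 200000 in
theorem d_A : ∀ x y : M, x.2.2.1 = x.2.2.2 → y.2.2.1 = y.2.2.2 → m x y ≠ m y x → good x → good y →
    good (m x y) → good (m x (m x y)) → good (m (m x y) y) → good (m x (m x (m x y))) →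
    q8 x ∧ q8 y := by decide +kernel
set_option synthInstance.maxSize 4096 in
set_option synthInstance.maxHeartbeats 200000 in
theorem d_B : ∀ x y : M, q8 x → q8 y → m x y ≠ m y x → ∀ g : M, g.2.2.1 = g.2.2.2 →
    m g x = m x g → m g y = m y g → good g → good (m g x) → q8 g := by decide +kernel
set_option synthInstance.maxSize 4096 in
set_option synthInstance.maxHeartbeats 200000 in
theorem d_C : ∀ x y : M, q8 x → q8 y → m x y ≠ m y x → ∀ g : M, q8 g →
    ∃ i : Fin 4, ∃ j : Fin 2, g = m (pw x i) (pw y j) := by decide +kernel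
theorem d_q8 : (Finset.univ.filter q8).card = 8 := by decide +kernel
theorem d_g : ∀ x : M, m x (1, 0, true, true) = m (1, 0, true, true) x →
    ∃ i : Fin 8, x = pw (1, 0, true, true) i := by decide +kernel
theorem d_g' : ∀ k : Fin 4, ∃ x : M,
    m x (1, 0, true, true) = m (pw (1, 0, true, true) (2 * k + 1)) x := by decide +kernel

variable {G : Type*} [Group G]

/-- the relations -/
structure Md (a b t s : G) : Prop where
  a4 : a ^ 4 = 1
  ab : a * b = b * a
  tt : t * t = 1
  ss : s * s = 1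
  st : s * t = t * s
  ta : cj t a = a⁻¹
  sa : cj s a = b

/-- the abelian part -/
def A (a b : G) (i j : ZMod 4) : G := a ^ i.val * b ^ j.val

/-- the parametrisation -/
def ψ (a b t s : G) (x : M) : G :=
  A a b x.1 x.2.1 * (if x.2.2.1 then t else 1) * (if x.2.2.2 then s else 1)

theorem eqns2 : True := by
  have := @A.eq_1.{0}; have := @ψ.eq_1.{0}
  trivial

theorem pow_val_add {a : G} (h : a ^ 4 = 1) (i k : ZMod 4) : a ^ (i + k).val = a ^ i.val * a ^ k.val := by
  rw [ZMod.val_add, ← pow_eq_pow_mod _ h, pow_add]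

theorem pow_val_neg {a : G} (h : a ^ 4 = 1) (i : ZMod 4) : a ^ (-i).val = a⁻¹ ^ i.val := by
  rw [inv_pow, eq_inv_iff_mul_eq_one, ← pow_val_add h, neg_add_cancel, ZMod.val_zero, pow_zero]

namespace Md

variable {a b t s : G} (D : Md a b t s)
include D

theorem b4 : b ^ 4 = 1 := by rw [← D.sa, ← cj_pow, D.a4, cj_one]

theorem sb : cj s b = a := by rw [← D.sa, ← mul_cj, D.ss, one_cj]

theorem tb : cj t b = b⁻¹ := by rw [← D.sa, ← mul_cj, ← D.st, mul_cj, D.ta, cj_inv]

theorem A_add (i j k l : ZMod 4) : A a b i j * A a b k l = A a b (i + k) (j + l) := by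
  rw [A, A, A, pow_val_add D.a4, pow_val_add D.b4, mul_assoc, ← mul_assoc (b ^ j.val),
    ((Commute.symm D.ab).pow_pow _ _).eq]
  simp only [mul_assoc]

theorem tA (i j : ZMod 4) : t * A a b i j = A a b (-i) (-j) * t := by
  rw [← mul_inv_eq_iff_eq_mul, A, A, pow_val_neg D.a4, pow_val_neg D.b4, ← D.ta, ← D.tb, ← cj_pow,
    ← cj_pow, ← cj_mul, cj]

theorem sA (i j : ZMod 4) : s * A a b i j = A a b j i * s := by
  rw [← mul_inv_eq_iff_eq_mul, A, A, ((show Commute a b from D.ab).pow_pow j.val i.val).eq]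
  conv_rhs => rw [← D.sb]
  conv_rhs => arg 1; rw [← D.sa]
  rw [← cj_pow, ← cj_pow, ← cj_mul, cj]

theorem ψ_mul (x y : M) : ψ a b t s (m x y) = ψ a b t s x * ψ a b t s y := by
  obtain ⟨i, j, e, d⟩ := x
  obtain ⟨k, l, e', d'⟩ := y
  have h1 : ∀ i j u, t * (A a b i j * u) = A a b (-i) (-j) * (t * u) := fun i j u => by
    rw [← mul_assoc, D.tA, mul_assoc]
  have h2 : ∀ i j u, s * (A a b i j * u) = A a b j i * (s * u) := fun i j u => by
    rw [← mul_assoc, D.sA, mul_assoc]
  have h3 : ∀ i j k l u, A a b i j * (A a b k l * u) = A a b (i + k) (j + l) * u := fun i j k l u => by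
    rw [← mul_assoc, D.A_add]
  have h4 : ∀ u, t * (t * u) = u := fun u => by rw [← mul_assoc, D.tt, one_mul]
  have h5 : ∀ u, s * (t * u) = t * (s * u) := fun u => by rw [← mul_assoc, D.st, mul_assoc]
  cases e <;> cases d <;> cases e' <;> cases d' <;>
    simp [ψ, m, sg, mul_assoc, h1, h2, h3, h4, h5, D.A_add, D.tA, D.sA, D.tt, D.ss, D.st]

omit D in
theorem ψ_one : ψ a b t s (0, 0, false, false) = 1 := by simp [ψ, A]

theorem ψ_pw (x : M) (n : ℕ) : ψ a b t s (pw x n) = ψ a b t s x ^ n := by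
  induction n with
  | zero => rw [pow_zero]; exact ψ_one
  | succ n ih => rw [pw, D.ψ_mul, ih, pow_succ]

theorem inj (h : ∀ x, ψ a b t s x = 1 → x = (0, 0, false, false)) :
    Function.Injective (ψ a b t s) := fun x y e =>
  (d_inv x y).1 (h _ (by rw [D.ψ_mul, e, ← D.ψ_mul, (d_inv y y).2 rfl, ψ_one]))

theorem A_one (h1 : a * a ≠ 1) (h2 : b * b ≠ 1) (h3 : a * a * (b * b) ≠ 1) {i j : ZMod 4}
    (h : A a b i j = 1) : i = 0 ∧ j = 0 := by
  have e1 : A a b 2 0 ≠ 1 := by
    change a ^ 2 * b ^ 0 ≠ 1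
    rwa [pow_zero, mul_one, sq]
  have e2 : A a b 0 2 ≠ 1 := by
    change a ^ 0 * b ^ 2 ≠ 1
    rwa [pow_zero, one_mul, sq]
  have e3 : A a b 2 2 ≠ 1 := by rwa [← sq, ← sq] at h3
  have h' : A a b (i + i) (j + j) = 1 := by rw [← D.A_add, h, mul_one]
  rcases d_ev i j with e | ⟨rfl, rfl⟩ | ⟨rfl, rfl⟩ | ⟨rfl, rfl⟩ | e | e | e
  · exact e
  · exact absurd h e1
  · exact absurd h e2
  · exact absurd h e3
  all_goals rw [e.1, e.2] at h'; contradiction

end Md

end H25.L2.QZ
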