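import Cfsg.Agent.Lib.L2S.Good
import Cfsg.Agent.Lib.L2S.Aff

/-! The cocycle on the normaliser of `A⟨t⟩`; the case without translations. -/

set_option autoImplicit false

namespace H38.TW

open Subgroup H4.YM H4.TL H25.L2

variable {G : Type*} [Group G] [Finite G] {F : Type*} [Field F] [Finite F]

set_option hygiene false in
local notation "𝐐" => adj A X.t
set_option hygiene false in
local notation "𝐍" => normalizer ((adj A X.t : Subgroup G) : Set G)

/-- the cocycle -/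
structure Coc (X : Fr G F) (A : Subgroup G) (e : ℕ) (b : G → F) : Prop extends X.Good A where
  e1 : ∀ a ∈ A, a ^ e ∈ X.V
  e2 : ∀ u ∈ X.V, ∃ a ∈ A, a ^ e = u
  e3 : ∀ a ∈ A, a ^ e = 1 → ∃ α ∈ A, α * α = a
  hb : ∀ g ∈ 𝐍, X.v (b g) = (X.t * cj g X.t) ^ e

variable {X : Fr G F} {A : Subgroup G} {e : ℕ} {b : G → F}

theorem exists_coc (D : X.Good A) : ∃ e b, Coc X A e b := by
  obtain ⟨e, h1, h2, h3⟩ := D.exists_exp
  choose! b hb using fun (g : G) (hg : g ∈ 𝐍) => X.mem_V.1 (h1 _ (D.Nt hg))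
  exact ⟨e, b, D, h1, h2, h3, fun g hg => (hb g hg).symm⟩

omit [Finite G] [Finite F] in
theorem z2 (X : Fr G F) (x : F) : x + x = 0 := by rw [← two_mul, X.char, zero_mul]

namespace Coc

variable (D : Coc X A e b)
include D

theorem coc {g h : G} (hg : g ∈ 𝐍) (hh : h ∈ 𝐍) :
    X.v (b (g * h)) = X.v (b g) * cj g (X.v (b h)) := by
  rw [D.hb _ (mul_mem hg hh), D.hb g hg, D.hb h hh, cj_pow,
    ← Commute.mul_pow (D.toGood.comm (D.toGood.Nt hg) (D.toGood.NA hg (D.toGood.Nt hh))), cj_mul,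
    mul_assoc, ← mul_assoc (cj g X.t), cj_sq X.tt, one_mul, mul_cj]

theorem bs {a g : G} (ha : a ∈ A) (hg : g ∈ 𝐍) (h : X.v (b g) = a ^ e) :
    ∃ α ∈ A, cj (α * g) X.t = X.t * a := by
  have N := D.toGood.Nt hg
  obtain ⟨α, hα, q⟩ := D.e3 (X.t * cj g X.t * a⁻¹) (A.mul_mem N (A.inv_mem ha)) (by
    rw [Commute.mul_pow (D.toGood.comm N (A.inv_mem ha)), ← D.hb g hg, h, inv_pow, mul_inv_cancel])
  refine ⟨α, hα, ?_⟩
  rw [mul_cj, ← X.ttu (cj g X.t), cj_mul, D.toGood.cjA hα N, D.toGood.cjt hα,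
    ← eq_mul_inv_iff_mul_eq.1 q]
  group

theorem b1 {g : G} (hg : g ∈ 𝐍) : b g = 0 ↔ ∃ α ∈ A, cj (α * g) X.t = X.t := by
  refine ⟨fun h => by simpa using D.bs A.one_mem hg (by rw [h, X.v_zero, one_pow]),
    fun ⟨α, hα, h⟩ => X.v_eq_one.1 ?_⟩
  obtain ⟨c, hc⟩ := X.mem_V.1 (D.e1 _ (A.inv_mem (A.inv_mem hα)))
  rw [mul_cj, ← inv_cj_eq] at h
  rw [D.hb g hg, ← h, D.toGood.cjt (A.inv_mem hα), X.ttu, (Commute.refl _).mul_pow, hc, X.v_sq]

theorem bcj {n g : G} (hn : n ∈ X.N1) (hg : g ∈ 𝐍) : X.v (b (cj n g)) = cj n (X.v (b g)) := by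
  rw [D.hb _ (cj_mem (D.toGood.N1_le hn) hg), D.hb g hg, cj_pow, cj_mul, ← cj_cj,
    (X.mem_N1.1 hn).1]

theorem bh (k : Fˣ) {g : G} (hg : g ∈ 𝐍) : b (cj (X.h k) g) = k * b g :=
  X.v_inj ((D.bcj (X.h_N1 k) hg).trans (X.h_v k _))

theorem bC {g : G} (hg : g ∈ 𝐍) (h : cj g X.t = X.t) : b g = 0 :=
  (D.b1 hg).2 ⟨1, A.one_mem, by rwa [one_mul]⟩

theorem bQ' {g : G} (hg : g ∈ 𝐐) : b g = 0 := by
  refine (D.b1 (le_normalizer hg)).2 ?_
  rcases D.toGood.iQ.cases hg with h | ⟨a, ha, rfl⟩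
  · exact ⟨g⁻¹, A.inv_mem h, by rw [inv_mul_cancel, one_cj]⟩
  · refine ⟨a, ha, ?_⟩
    have : a * (X.t * a) = X.t := by
      rw [mul_inv_eq_iff_eq_mul.1 (D.toGood.inv ha), mul_inv_cancel_left]
    rw [this, cj_eq_iff]

theorem bt {g a : G} (hg : g ∈ 𝐍) (h : cj g X.t = X.t * a) : X.v (b g) = a ^ e := by
  rw [D.hb g hg, h, X.ttu]

theorem hom {g h : G} (hg : g ∈ 𝐍) (hh : h ∈ 𝐍) (c : ∀ a, cj g (X.v a) = X.v a) :
    b (g * h) = b g + b h := X.v_inj (by rw [D.coc hg hh, c, X.v_add])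

theorem exists_act : ∃ act : 𝐍 →* Equiv.Perm (Multiplicative F),
    ∀ (g : 𝐍) u, X.v (act g u).toAdd = X.v (b g) * cj (g : G) (X.v u.toAdd) := by
  choose l hl using fun (g : 𝐍) (a : F) => X.mem_V.1 (D.toGood.NV g.2 a)
  refine ⟨MonoidHom.toHomPerm
    { toFun := fun g u => Multiplicative.ofAdd (b g + l g u.toAdd)
      map_one' := funext fun u => Multiplicative.toAdd.injective (X.v_inj ?_)
      map_mul' := fun g h => funext fun u => Multiplicative.toAdd.injective (X.v_inj ?_) },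
    fun g u => ?_⟩
  · show X.v (b 1 + l 1 u.toAdd) = X.v u.toAdd
    rw [D.bQ' (one_mem _), zero_add, ← hl, coe_one, one_cj]
  · show X.v (b (g * h) + l (g * h) u.toAdd) = X.v (b g + l g (b h + l h u.toAdd))
    rw [X.v_add, X.v_add, ← hl, ← hl, X.v_add, ← hl, D.coc g.2 h.2, coe_mul, mul_cj, cj_mul,
      mul_assoc]
  · show X.v (b g + l g u.toAdd) = _
    rw [X.v_add, ← hl]

theorem nr (h0 : ∀ k ∈ 𝐍, (∀ a, cj k (X.v a) = X.v a) → b k = 0) : X.NR A := by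
  obtain ⟨act, ha⟩ := D.exists_act
  have inj : ∀ {u w : Multiplicative F}, X.v u.toAdd = X.v w.toAdd → u = w := fun q =>
    Multiplicative.toAdd.injective (X.v_inj q)
  have a1 : ∀ g : 𝐍, (act g 1).toAdd = b g := fun g => X.v_inj (by
    rw [ha, toAdd_one, X.v_zero, cj_one, mul_one])
  have a2 : ∀ (g : 𝐍) u, X.v (act g u * act g 1).toAdd = cj (g : G) (X.v u.toAdd) := fun g u => by
    rw [toAdd_mul, add_comm, X.v_add, a1, ha, ← mul_assoc, X.v_sq, one_mul]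
  let κ : Fˣ →* Equiv.Perm (Multiplicative F) :=
    act.comp (X.h.codRestrict 𝐍 fun k => D.toGood.N1_le (X.h_N1 k))
  have hκ : ∀ k u, (κ k u).toAdd = k * u.toAdd := fun k u => X.v_inj (by
    rw [← X.h_v]
    refine (ha _ u).trans ?_
    rw [D.bC (Subtype.prop _) (X.h_t k), X.v_zero, one_mul]
    rfl)
  have st : ∀ x ∈ act.range, x 1 = 1 →
      ∃ (k : Fˣ) (τ : F ≃+* F), ∀ u, (x u).toAdd = k * τ u.toAdd := by
    rintro _ ⟨g, rfl⟩ h
    have h1 : b g = 0 := by rw [← a1, h, toAdd_one]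
    obtain ⟨α, hα, q⟩ := (D.b1 g.2).1 h1
    obtain ⟨k, τ, r⟩ := X.N1_act (D.toGood.N1_of (mul_mem (le_normalizer (le_adj hα)) g.2) q)
    refine ⟨k, τ, fun u => X.v_inj ?_⟩
    obtain ⟨c, hc⟩ := X.mem_V.1 (D.toGood.NV g.2 u.toAdd)
    rw [ha, h1, X.v_zero, one_mul, ← r, mul_cj, hc, D.toGood.QV (le_adj hα)]
  have Af : Aff' act.range κ.range :=
    { sq := fun u => Multiplicative.toAdd.injective (z2 X _)
      four := X.four
      aff := by
        rintro _ ⟨g, rfl⟩ u w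
        refine inj ?_
        rw [mul_assoc, toAdd_mul (act g u), X.v_add, a2, ha, ha, toAdd_mul, X.v_add, cj_mul,
          mul_assoc]
      notr := by
        rintro _ ⟨g, rfl⟩ h
        have c : ∀ a, cj (g : G) (X.v a) = X.v a := fun a =>
          (a2 g (Multiplicative.ofAdd a)).symm.trans (by rw [h]; rfl)
        exact Equiv.ext fun u => inj (by rw [ha, h0 g g.2 c, X.v_zero, one_mul, c]; rfl)
      tr := fun u => by
        obtain ⟨a, h1, h2⟩ := D.e2 _ (X.v_mem_V u.toAdd)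
        obtain ⟨g, hg, q⟩ := D.toGood.trans h1
        exact ⟨_, ⟨⟨g, hg⟩, rfl⟩, inj (by rw [a1, D.bt hg q, h2])⟩
      KX := by
        rintro _ ⟨k, rfl⟩
        exact ⟨_, rfl⟩
      K1 := by
        rintro _ ⟨k, rfl⟩
        exact Multiplicative.toAdd.injective (by rw [hκ, toAdd_one, mul_zero])
      Ktr := fun u w u1 w1 => by
        have u0 : u.toAdd ≠ 0 := u1
        have w0 : w.toAdd ≠ 0 := w1
        exact ⟨_, ⟨Units.mk0 _ (div_ne_zero w0 u0), rfl⟩, Multiplicative.toAdd.injective (by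
          rw [hκ, Units.val_mk0, div_mul_cancel₀ _ u0])⟩
      Kc := by
        rintro _ ⟨k, rfl⟩ _ ⟨l, rfl⟩
        rw [← map_mul, mul_comm, map_mul]
      Kn := by
        rintro x hx h _ ⟨l, rfl⟩
        obtain ⟨k, τ, r⟩ := st x hx h
        refine ⟨Units.map (τ : F →* F) l, eq_mul_inv_iff_mul_eq.2 (Equiv.ext fun u =>
          Multiplicative.toAdd.injective ?_)⟩
        rw [Equiv.Perm.mul_apply, Equiv.Perm.mul_apply, hκ, r, r, hκ, map_mul, mul_left_comm]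
        rfl
      Kd := fun x hx y hy h h' => by
        obtain ⟨k, τ, r⟩ := st x hx h
        obtain ⟨k', τ', r'⟩ := st y hy h'
        refine ⟨k * Units.map (τ : F →* F) k' * (k' * Units.map (τ' : F →* F) k)⁻¹, ?_⟩
        rw [mul_assoc (x * y), ← mul_inv_rev, eq_mul_inv_iff_mul_eq]
        refine Equiv.ext fun u => Multiplicative.toAdd.injective ?_
        have c : τ' (τ u.toAdd) = τ (τ' u.toAdd) := congrArg (· u.toAdd) (aut_comm τ' τ)
        rw [Equiv.Perm.mul_apply, Equiv.Perm.mul_apply, Equiv.Perm.mul_apply, hκ, r', r, r, r',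
          map_mul τ', map_mul τ, c, ← mul_assoc (k' : F)]
        change _ * (((k' * Units.map (τ' : F →* F) k : Fˣ) : F) * _) = _
        rw [← mul_assoc, ← Units.val_mul, inv_mul_cancel_right, ← mul_assoc]
        rfl }
  obtain ⟨m1, m2⟩ := Af.eight
  refine ⟨D.toGood, m1, fun a => D.toGood.trans, fun g hg c => (D.b1 hg).1 (h0 g hg c), fun α => ?_⟩
  obtain ⟨_, ⟨g, rfl⟩, q⟩ := m2 (AddEquiv.toMultiplicative α)
  exact ⟨g, g.2, fun a => (a2 g (Multiplicative.ofAdd a)).symm.trans (by rw [q]; rfl)⟩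

end Coc

end H38.TW
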