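import Cfsg.Agent.Lib.L2S.Bas
import Cfsg.Agent.Lib.AutCl.Galois

/-! The automiser in the double case: the centraliser of the transvection and the swap. -/

set_option autoImplicit false

namespace H25.L2

open Subgroup H4.YM H4.TL Matrix MatrixGroups

variable {G : Type*} [Group G] [Finite G] {F : Type*} [Field F] [Finite F]

/-- an element exchanging `t` and `s` -/
structure Swp (h : (2 : F) = 0) (τ : F ≃+* F) (N : Subgroup (Equiv.Perm (F × F)))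
    (x : Equiv.Perm (F × F)) : Prop extends Lin h τ N where
  big : 16 ≤ Nat.card F
  nf : ∀ n ∈ N, cj n (tb h) ≠ fb τ
  xN : x ∈ N
  x2 : ∃ j : ℕ, x ^ 2 ^ j = 1
  xt : cj x (tb h) = tb h * fb τ
  xf : cj x (fb τ) = fb τ
  xh : ∀ k : Fˣ, τ k = k → ∃ k' : Fˣ, τ k' = k' ∧ cj x (hb k) = hb k'

namespace WA

/-- the shape of the elements centralising the transvection -/
def Frm (n : Equiv.Perm (F × F)) (k : F) (ψ : F ≃+* F) (l : F) : Prop :=
  k ≠ 0 ∧ ∀ a c, n (a, c) = (k * ψ a + l * (k * ψ c), k * ψ c)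

theorem frm_auto : True := by have := @Frm.eq_1.{0}; trivial

variable {h : (2 : F) = 0} {τ ψ ψ' : F ≃+* F} {N P : Subgroup (Equiv.Perm (F × F))}
  {n n' : Equiv.Perm (F × F)} {k k' l l' : F}

omit [Finite F] in
theorem Frm.uniq (H : Frm n k ψ l) (H' : Frm n k' ψ' l') : k = k' ∧ ψ = ψ' ∧ l = l' := by
  have e := fun a c => (H.2 a c).symm.trans (H'.2 a c)
  obtain rfl : k = k' := by simpa using (Prod.ext_iff.1 (e 0 1)).2
  refine ⟨rfl, RingEquiv.ext fun c => mul_left_cancel₀ H.1 (Prod.ext_iff.1 (e 0 c)).2, ?_⟩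
  simpa [H.1] using (Prod.ext_iff.1 (e 0 1)).1

omit [Finite F] in
theorem Frm.mul (H : Frm n k ψ l) (H' : Frm n' k' ψ' l') :
    Frm (n * n') (k * ψ k') (ψ * ψ') (l + ψ l') :=
  ⟨mul_ne_zero H.1 ((map_ne_zero ψ).2 H'.1), fun a c => by
    rw [Equiv.Perm.mul_apply, H'.2, H.2]
    simp only [map_add, map_mul, RingAut.mul_apply, Prod.mk.injEq]
    exact ⟨by ring, by ring⟩⟩

omit [Finite F] in
theorem Frm.eq (H : Frm n k ψ l) (H' : Frm n' k ψ l) : n = n' :=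
  Equiv.ext fun ⟨a, c⟩ => (H.2 a c).trans (H'.2 a c).symm

omit [Finite F] in
theorem frm_one : Frm (1 : Equiv.Perm (F × F)) 1 1 0 := ⟨one_ne_zero, fun a c => by simp⟩

omit [Finite F] in
theorem frm_tb (h : (2 : F) = 0) : Frm (tb h) 1 1 1 := ⟨one_ne_zero, fun a c => by simp [tb]⟩

omit [Finite F] in
theorem frm_hb (k : Fˣ) : Frm (hb k) k 1 0 := ⟨k.ne_zero, fun a c => by simp [hb]⟩

omit [Finite F] in
theorem frm_fb (τ : F ≃+* F) : Frm (fb τ) 1 τ 0 := ⟨one_ne_zero, fun a c => by simp [fb]⟩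

omit [Finite F] in
theorem tb_sq (h : (2 : F) = 0) : tb h * tb h = 1 :=
  ((frm_tb h).mul (frm_tb h)).eq (by simpa [one_add_one_eq_two, h] using frm_one)

omit [Finite F] in
theorem tb_ne (h : (2 : F) = 0) : tb h ≠ 1 := fun e =>
  one_ne_zero ((e ▸ frm_tb h).uniq frm_one).2.2

omit [Finite F] in
theorem fb_sq (h2 : τ * τ = 1) : fb τ * fb τ = 1 :=
  ((frm_fb τ).mul (frm_fb τ)).eq (by simpa [h2] using frm_one)

omit [Finite F] in
theorem fb_ne (h1 : τ ≠ 1) : fb τ ≠ 1 := fun e => h1 ((e ▸ frm_fb τ).uniq frm_one).2.1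

omit [Finite F] in
theorem fb_tb (h : (2 : F) = 0) (τ : F ≃+* F) : fb τ * tb h = tb h * fb τ :=
  ((frm_fb τ).mul (frm_tb h)).eq (by simpa using (frm_tb h).mul (frm_fb τ))

omit [Finite F] in
theorem hb_mul (k k' : Fˣ) : hb (k * k') = hb k * hb k' :=
  (frm_hb _).eq (by simpa using (frm_hb k).mul (frm_hb k'))

omit [Finite F] in
theorem Frm.hb_comm (H : Frm n k ψ l) {u u' : Fˣ} (e : (u' : F) = ψ u) : n * hb u = hb u' * n :=
  (H.mul (frm_hb u)).eq (by simpa [e, mul_comm] using (frm_hb u').mul H)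

omit [Finite F] in
theorem sq_inj (h : (2 : F) = 0) {a b : F} (e : a * a = b * b) : a = b := by
  have : (a - b) * (a - b) = 0 := by linear_combination e + (b * b - a * b) * h
  exact sub_eq_zero.1 (mul_self_eq_zero.1 this)

theorem exists_sqrt (h : (2 : F) = 0) (k : Fˣ) : ∃ u : Fˣ, u * u = k :=
  Finite.surjective_of_injective (f := fun u : Fˣ => u * u)
    (fun _ _ e => Units.ext (sq_inj h (by simpa using congrArg Units.val e))) k

omit [Finite F] in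
theorem exists_frm (H : Lin h τ N) (hn : n ∈ N) (ht : cj n (tb h) = tb h) :
    ∃ k ψ l, Frm n k ψ l ∧ (ψ = 1 → l = 0 ∨ l = 1) :=
  let ⟨k, ψ, l, h1, h2⟩ := H.cen n hn ht
  ⟨k, ψ, l, ⟨k.ne_zero, h1⟩, h2⟩

omit [Finite F] in
/-- a linear `2`-element centralising the transvection -/
theorem ker_two (H : Lin h τ N) (hn : n ∈ N) (ht : cj n (tb h) = tb h) {j : ℕ} (hj : n ^ 2 ^ j = 1)
    (f : Frm n k 1 l) : n = 1 ∨ n = tb h := by
  have pw : ∀ m : ℕ, ∃ l', Frm (n ^ m) (k ^ m) 1 l' := fun m => by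
    induction m with
    | zero => exact ⟨0, by simpa using frm_one⟩
    | succ m ih =>
      obtain ⟨l', ih⟩ := ih
      exact ⟨_, by simpa [pow_succ] using ih.mul f⟩
  have k1 : ∀ (j : ℕ) (k : F), k ^ 2 ^ j = 1 → k = 1 := fun j => by
    induction j with
    | zero => simp
    | succ j ih =>
      intro k e
      rw [pow_succ', pow_mul] at e
      exact sq_inj h (by rw [← sq, ih _ e, mul_one])
  obtain ⟨l', e⟩ := pw (2 ^ j)
  obtain rfl := k1 j k ((hj ▸ e).uniq frm_one).1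
  obtain ⟨k', ψ, l2, f2, e2⟩ := exists_frm H hn ht
  obtain ⟨-, rfl, rfl⟩ := f.uniq f2
  rcases e2 rfl with rfl | rfl
  · exact Or.inl (f.eq frm_one)
  · exact Or.inr (f.eq (frm_tb h))

theorem sq_cases (H : Lin h τ N) (hP : IsPGroup 2 P) (hN : P ≤ N)
    (ht : ∀ p ∈ P, cj p (tb h) = tb h) (hf : fb τ ∈ P) {p : Equiv.Perm (F × F)} (hp : p ∈ P)
    (e : p * p = 1 ∨ p * p = tb h) : p = 1 ∨ p = tb h ∨ p = fb τ ∨ p = tb h * fb τ := by
  obtain ⟨k, ψ, l, f, -⟩ := exists_frm H (hN hp) (ht p hp)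
  have h2 : ψ * ψ = 1 := by
    rcases e with e | e
    · exact ((e ▸ f.mul f).uniq frm_one).2.1
    · exact ((e ▸ f.mul f).uniq (frm_tb h)).2.1
  by_cases h1 : ψ = 1
  · obtain ⟨j, hj⟩ := pg_pow hP hp
    exact (ker_two H (hN hp) (ht p hp) hj (h1 ▸ f)).imp_right Or.inl
  · obtain rfl := aut_inv_uniq h1 h2 H.τ1 H.ττ
    have hq := mul_mem hp hf
    obtain ⟨j, hj⟩ := pg_pow hP hq
    have e1 : p = p * fb ψ * fb ψ := by rw [mul_assoc, fb_sq h2, mul_one]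
    rcases ker_two H (hN hq) (ht _ hq) hj (h2 ▸ f.mul (frm_fb ψ)) with e2 | e2 <;> rw [e2] at e1
    · exact Or.inr (Or.inr (Or.inl (by rw [e1, one_mul])))
    · exact Or.inr (Or.inr (Or.inr e1))

end WA

open WA

/-- the Sylow subgroups of the centraliser of `tb` -/
theorem Lin.omega {h : (2 : F) = 0} {τ : F ≃+* F} {N : Subgroup (Equiv.Perm (F × F))}
    (H : Lin h τ N) {P : Subgroup (Equiv.Perm (F × F))} (hP : IsPGroup 2 P) (hN : P ≤ N)
    (ht : ∀ p ∈ P, cj p (tb h) = tb h) (hf : fb τ ∈ P) :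
    (∀ p ∈ P, ∀ p' ∈ P, p * p' = p' * p) ∧
      ∀ p ∈ P, p * p = 1 → p = 1 ∨ p = tb h ∨ p = fb τ ∨ p = tb h * fb τ := by
  refine ⟨fun p hp p' hp' => ?_, fun p hp e => sq_cases H hP hN ht hf hp (Or.inl e)⟩
  choose k ψ l f _ using fun p : P => exists_frm H (hN p.2) (ht p p.2)
  let π : P →* RingAut F := MonoidHom.mk' ψ fun a b => ((f (a * b)).uniq ((f a).mul (f b))).2.1
  refine congrArg Subtype.val ((π.isMulCommutative_of_isCyclic_of_ker_le_center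
    fun a ha => ?_).is_comm.comm ⟨p, hp⟩ ⟨p', hp'⟩)
  obtain ⟨j, hj⟩ := pg_pow hP a.2
  refine mem_center_iff.2 fun g => Subtype.ext ?_
  rcases ker_two H (hN a.2) (ht a a.2) hj ((show ψ a = 1 from ha) ▸ f a) with e | e
  · simp [e]
  · simpa [e] using cj_eq_iff.1 (ht g g.2)

namespace WA

variable {h : (2 : F) = 0} {τ : F ≃+* F} {N : Subgroup (Equiv.Perm (F × F))}
  {x : Equiv.Perm (F × F)}

theorem xh1 (H : Lin h τ N) (xN : x ∈ N) (xt : cj x (tb h) = tb h * fb τ)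
    (xf : cj x (fb τ) = fb τ) {k : Fˣ} (hk : τ k = k) :
    ∃ κ ψ l, Frm (cj x (hb k)) κ ψ l ∧ ψ * ψ = 1 ∧ τ κ = κ := by
  have xs : cj x (tb h * fb τ) = tb h := by rw [cj_mul, xt, xf, mul_assoc, fb_sq H.ττ, mul_one]
  have ct : ∀ u : Fˣ, cj (hb u) (tb h) = tb h := fun u =>
    cj_eq_iff.2 ((frm_tb h).hb_comm (u' := u) rfl).symm
  have cf : ∀ u : Fˣ, τ u = u → cj (hb u) (fb τ) = fb τ := fun u e =>
    cj_eq_iff.2 ((frm_fb τ).hb_comm e.symm).symm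
  have cs : ∀ u : Fˣ, τ u = u → cj (hb u) (tb h * fb τ) = tb h * fb τ := fun u e => by
    rw [cj_mul, ct, cf u e]
  obtain ⟨κ, ψ, l, f, -⟩ := exists_frm H (cj_mem xN (H.hN k)) (by
    nth_rw 1 [← xs]; rw [cj_cj, cs k hk, xs])
  have gf : cj x (hb k) * fb τ = fb τ * cj x (hb k) :=
    cj_eq_iff.1 (by nth_rw 1 [← xf]; rw [cj_cj, cf k hk, xf])
  refine ⟨κ, ψ, l, f, ?_, by
    have f1 := f.mul (frm_fb τ)
    rw [gf] at f1
    simpa using (((frm_fb τ).mul f).uniq f1).1⟩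
  have key : ∀ u : F, τ u = u → ψ u * ψ u = u * ψ (ψ u) := fun u hu => by
    by_cases u0 : u = 0
    · simp [u0]
    obtain ⟨u, rfl⟩ : ∃ v : Fˣ, (v : F) = u := ⟨Units.mk0 u u0, rfl⟩
    obtain ⟨κ', ψ', l', f', -⟩ := exists_frm H (cj_mem (inv_mem xN) (H.hN u)) (by
      nth_rw 1 [← inv_cj_cj x (tb h)]; rw [cj_cj, xt, cs u hu, ← xt, inv_cj_cj])
    have e1 := f'.hb_comm (u := k) (u' := Units.mk0 (ψ' k) ((map_ne_zero ψ').2 k.ne_zero)) rfl
    generalize Units.mk0 (ψ' k) _ = k1 at e1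
    have e2 := congrArg (cj x) e1
    rw [cj_mul, cj_mul, cj_inv_cj] at e2
    have e3 : cj x (hb k1) * cj x (hb k) = cj x (hb k) * cj x (hb k1) := by
      rw [← cj_mul, ← cj_mul, ← hb_mul, mul_comm, hb_mul]
    have e4 : cj x (hb k1) = hb u * cj x (hb k) * hb u⁻¹ := by
      rw [e2, mul_assoc, ← hb_mul, mul_inv_cancel, (frm_hb 1).eq frm_one, mul_one]
    have f1 := ((frm_hb u).mul f).mul (frm_hb u⁻¹)
    rw [← e4] at f1
    have e5 := ((f1.mul f).uniq (e3 ▸ f.mul f1)).1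
    have n1 := f.1
    have n2 := (map_ne_zero ψ).2 n1
    have n3 := (map_ne_zero ψ).2 u.ne_zero
    have n4 := (map_ne_zero ψ).2 n3
    simp only [RingAut.one_apply, one_mul, mul_one, map_mul, Units.val_inv_eq_inv_val,
      map_inv₀] at e5
    field_simp at e5
    linear_combination -e5
  have fx : ∀ u : F, τ u = u → ψ u = u := fun u hu => by
    have e1 := key u hu
    have e2 := key (u + 1) (by rw [map_add, hu, map_one])
    simp only [map_add, map_one] at e2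
    have e3 : ψ (ψ u) = u := by linear_combination e1 - e2 + (ψ u - u) * h
    rw [e3] at e1
    exact sq_inj h e1
  have tt : ∀ a, τ (τ a) = a := fun a => DFunLike.congr_fun H.ττ a
  refine RingEquiv.ext fun a => show ψ (ψ a) = a from ?_
  have e1 := fx (a + τ a) (by rw [map_add, tt, add_comm])
  have e2 := fx (a * τ a) (by rw [map_mul, tt, mul_comm])
  rw [map_add] at e1
  rw [map_mul] at e2
  have e3 : (ψ a - a) * (ψ a - τ a) = 0 := by linear_combination (ψ a) * e1 - e2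
  rcases mul_eq_zero.1 e3 with e | e <;> rw [sub_eq_zero] at e
  · rw [e, e]
  · rw [e, show ψ (τ a) = τ (ψ a) from DFunLike.congr_fun (aut_comm ψ τ) a, e, tt]

theorem xh (H : Lin h τ N) (xN : x ∈ N) (xt : cj x (tb h) = tb h * fb τ)
    (xf : cj x (fb τ) = fb τ) (k : Fˣ) (hk : τ k = k) :
    ∃ k' : Fˣ, τ k' = k' ∧ cj x (hb k) = hb k' := by
  have sq : ∀ k : Fˣ, τ k = k → ∃ u : Fˣ, τ u = u ∧ cj x (hb k) = cj x (hb u) * cj x (hb u) :=
    fun k hk => by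
    obtain ⟨u, rfl⟩ := exists_sqrt h k
    exact ⟨u, sq_inj h (by simpa using hk), by rw [hb_mul, cj_mul]⟩
  obtain ⟨u, hu, e⟩ := sq k hk
  obtain ⟨v, hv, e'⟩ := sq u hu
  obtain ⟨κ, ψ, l, f, h1, h2⟩ := xh1 H xN xt xf hv
  have f1 := f.mul f
  rw [← e', h1] at f1
  have f2 := f1.mul f1
  rw [← e] at f2
  refine ⟨Units.mk0 _ f2.1, ?_, f2.eq ?_⟩
  · have : τ (ψ κ) = ψ κ := by
      rw [show τ (ψ κ) = ψ (τ κ) from DFunLike.congr_fun (aut_comm τ ψ) κ, h2]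
    simp [h2, this]
  · simpa [← two_mul, h] using frm_hb (Units.mk0 _ f2.1)

theorem odd_part {G : Type*} [Group G] [Finite G] (x : G) :
    ∃ m, Odd m ∧ ∃ j : ℕ, (x ^ m) ^ 2 ^ j = 1 := by
  obtain ⟨j, m, hm, e⟩ := Nat.exists_eq_two_pow_mul_odd (orderOf_pos x).ne'
  exact ⟨m, hm, j, by rw [← pow_mul, mul_comm, ← e, pow_orderOf_eq_one]⟩

end WA

theorem Lin.swap {h : (2 : F) = 0} {τ : F ≃+* F} {N : Subgroup (Equiv.Perm (F × F))}
    (H : Lin h τ N) (big : 16 ≤ Nat.card F) :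
    (∀ w ∈ N, w * w = 1 → w ≠ 1 → ∃ x ∈ N, cj x (tb h) = w) ∨ ∃ x, Swp h τ N x := by
  have tt := tb_sq h
  have ff := fb_sq H.ττ
  have ft := fb_tb h τ
  obtain ⟨T, hW, S⟩ := exists_syl (X := adj (zpowers (fb τ)) (tb h)) (H := N ⊓ centralizer {tb h})
    (pg_of_sq fun p hp => by
      have hz : ∀ q ∈ zpowers (fb τ), q * q = 1 ∧ q * tb h = tb h * q := by
        rintro _ ⟨i, rfl⟩
        exact ⟨by rw [← (Commute.refl _).mul_zpow, ff, _root_.one_zpow], (Commute.zpow_left ft i).eq⟩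
      rcases (mem_adj (fun q hq => by rwa [cj_eq_iff.2 (hz q hq).2.symm])
        (by rw [tt]; exact one_mem _)).1 hp with e | e
      · exact (hz p e).1
      · obtain ⟨q, rfl⟩ : ∃ q, p = tb h * q := ⟨(tb h)⁻¹ * p, by group⟩
        rw [inv_mul_cancel_left] at e
        rw [mul_assoc, ← mul_assoc q, (hz q e).2, mul_assoc, (hz q e).1, mul_one, tt])
    (adj_le (zpowers_le.2 ⟨H.fN, mem_cen.2 (cj_eq_iff.2 ft)⟩) ⟨H.tN, mem_cen.2 (cj_eq_iff.2 rfl)⟩)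
  have tT : tb h ∈ T := hW self_mem_adj
  have fT : fb τ ∈ T := hW (le_adj (mem_zpowers _))
  have TN : T ≤ N := S.le.trans inf_le_left
  have Tt : ∀ p ∈ T, cj p (tb h) = tb h := fun p hp => mem_cen.1 (S.le hp).2
  obtain ⟨ab, om⟩ := H.omega S.pg TN Tt fT
  have mv : ∀ n ∈ N, cj n (tb h) ∈ T → (∃ x ∈ N, cj x (tb h) = cj n (tb h) ∧ cm x T = T) ∧
      Syl T (N ⊓ centralizer {cj n (tb h)}) := fun n hn hw => by
    have S1 := S.cm n
    rw [cm_inf, cm_cen, cm_eq_of_le (fun y hy => cj_mem hn hy) le_rfl] at S1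
    obtain ⟨c, hc, e⟩ := S1.conj S.pg (le_inf TN fun p hp => mem_cen.2 (cj_eq_iff.2 (ab p hp _ hw)))
    have e1 := eq_of_le_of_card_ge e (by rw [card_cm, card_cm])
    refine ⟨⟨c * n, mul_mem hc.1 hn, by rw [mul_cj, mem_cen.1 hc.2], by rw [cm_mul, ← e1]⟩, ?_⟩
    obtain ⟨m, m1, m2⟩ := S1.odd
    exact ⟨S.pg, le_inf TN fun p hp => mem_cen.2 (cj_eq_iff.2 (ab p hp _ hw)), m, m1, by
      rw [m2, card_cm]⟩
  have nsq : ∀ n ∈ N, ∀ p ∈ T, p * p ≠ cj n (tb h) := fun n hn p hp e => by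
    obtain ⟨⟨y, -, e1, e2⟩, -⟩ := mv n hn (e ▸ mul_mem hp hp)
    have hq : cj y⁻¹ p ∈ T := mem_cm.1 (e2.symm ▸ hp)
    have e3 : cj y⁻¹ p * cj y⁻¹ p = tb h := by rw [← cj_mul, e, ← e1, inv_cj_cj]
    refine tb_ne h (e3.symm.trans ?_)
    rcases sq_cases H S.pg TN Tt fT hq (Or.inr e3) with e4 | e4 | e4 | e4 <;> rw [e4]
    exacts [mul_one _, tt, ff, by rw [mul_assoc, ← mul_assoc (fb τ), ft, mul_assoc, ff, mul_one, tt]]
  obtain ⟨x0, hx0, e0⟩ := H.fus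
  by_cases nf : ∀ n ∈ N, cj n (tb h) ≠ fb τ
  · obtain ⟨⟨x, hx, e1, e2⟩, -⟩ := mv x0 hx0 (e0 ▸ mul_mem tT fT)
    rw [e0] at e1
    have xf : cj x (fb τ) = fb τ := by
      rcases om _ (e2 ▸ cj_mem_cm.2 fT) (cj_sq ff) with e | e | e | e
      · exact absurd (cj_eq_one.1 e) (fb_ne H.τ1)
      · exact absurd (inv_cj_eq.2 e) (nf _ (inv_mem hx))
      · exact e
      · exact absurd ((one_cj _).trans (cj_inj x (e1.trans e.symm))) (nf _ (one_mem _))
    obtain ⟨m, hm, x2⟩ := odd_part x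
    have k1 : cj (x ^ m) (tb h) = tb h * fb τ :=
      cj_pow_swap e1 (by rw [cj_mul, e1, xf, mul_assoc, ff, mul_one]) hm
    have k2 : cj (x ^ m) (fb τ) = fb τ := cj_pow_swap xf xf hm
    exact Or.inr ⟨x ^ m, H, big, nf, pow_mem hx m, x2, k1, k2, xh H (pow_mem hx m) k1 k2⟩
  push Not at nf
  obtain ⟨x1, hx1, e1⟩ := nf
  have all : ∀ p ∈ T, p * p = 1 → p ≠ 1 → ∃ x ∈ N, cj x (tb h) = p := fun p hp e p1 => by
    rcases om p hp e with rfl | rfl | rfl | rfl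
    exacts [absurd rfl p1, ⟨1, one_mem _, one_cj _⟩, ⟨x1, hx1, e1⟩, ⟨x0, hx0, e0⟩]
  obtain ⟨R, hR, SR⟩ := exists_syl S.pg TN
  obtain ⟨z, zR, z2, z1, zc⟩ := exists_central SR.pg fun e => tb_ne h (mem_bot.1 (e ▸ hR tT))
  have zT : z ∈ T := by
    have := S.eq_of_le (X := R ⊓ centralizer {tb h}) (pg_le SR.pg inf_le_left)
      (inf_le_inf_right _ SR.le) (le_inf hR fun p hp => (S.le hp).2)
    exact this ▸ ⟨zR, mem_cen.2 (cj_comm.1 (zc _ (hR tT)))⟩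
  obtain ⟨n, hn, rfl⟩ := all z zT z2 z1
  obtain rfl := (mv n hn zT).2.eq_of_le SR.pg (le_inf SR.le fun p hp => mem_cen.2 (zc p hp)) hR
  refine Or.inl fun w hw w2 w1 => ?_
  obtain ⟨c, hc, e⟩ := SR.conj (pg_zpowers (k := 1) (by rw [pow_one, sq, w2])) (zpowers_le.2 hw)
  obtain ⟨y, hy, e2⟩ := all _ (mem_cm.1 (e (mem_zpowers w))) (cj_sq w2) fun e => w1 (cj_eq_one.1 e)
  exact ⟨c * y, mul_mem hc hy, by rw [mul_cj, e2, cj_inv_cj]⟩

end H25.L2
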