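import Cfsg.Agent.Lib.L2S.WrC1

/-! The wreath shadow: the stabiliser of the two lines. -/

set_option autoImplicit false
set_option linter.unusedSectionVars false

namespace H25.L2.WrC

open Subgroup H4.YM H4.TL

variable {F : Type*} [Field F] [Finite F] {h : (2 : F) = 0} {τ : F ≃+* F}
  {N : Subgroup (Equiv.Perm (F × F))} {θ : F → F → F × F} {lam : F}

/-- semilinear on both lines -/
def Dg (θ : F → F → F × F) (n : Equiv.Perm (F × F)) (c1 c2 : F) (α1 α2 : F ≃+* F) : Prop :=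
  ∀ u v, n (θ u v) = θ (c1 * α1 u) (c2 * α2 v)

/-- every fixed vector is a commutator -/
def Free (n : Equiv.Perm (F × F)) : Prop := ∀ y, n y = y → ∃ y', y = y' + n y'

variable {n m r : Equiv.Perm (F × F)} {a b c1 c2 d1 d2 : F} {α1 α2 β1 β2 : F ≃+* F}

theorem Dg.mul (e : Dg θ n c1 c2 α1 α2) (e' : Dg θ m d1 d2 β1 β2) :
    Dg θ (n * m) (c1 * α1 d1) (c2 * α2 d2) (α1 * β1) (α2 * β2) := fun u v => by
  rw [Equiv.Perm.mul_apply, e', e, map_mul, map_mul, mul_assoc, mul_assoc]; rfl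

theorem Dg.one : Dg θ 1 1 1 1 1 := fun u v => by simp

theorem Dg.pow (e : Dg θ n a b 1 1) (k : ℕ) : Dg θ (n ^ k) (a ^ k) (b ^ k) 1 1 := by
  induction k with
  | zero => simpa using Dg.one
  | succ k ih => simpa [pow_succ] using ih.mul e

theorem Dg.cjt (C : Cs h τ N θ lam) (e : Dg θ n c1 c2 α1 α2) : Dg θ (cj (tb h) n) c2 c1 α2 α1 :=
  fun u v => by rw [← C.t_θ, cj_apply, e, C.t_θ]

theorem Dg.ne (C : Cs h τ N θ lam) (e : Dg θ n c1 c2 α1 α2) : c1 ≠ 0 ∧ c2 ≠ 0 :=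
  ⟨fun k => one_ne_zero (C.inj (n.injective (by rw [e 1 0, e 0 0, k]; simp))).1,
    fun k => one_ne_zero (C.inj (n.injective (by rw [e 0 1, e 0 0, k]; simp))).2⟩

theorem Dg.inv (C : Cs h τ N θ lam) (e : Dg θ n c1 c2 α1 α2) :
    Dg θ n⁻¹ (α1.symm c1⁻¹) (α2.symm c2⁻¹) α1⁻¹ α2⁻¹ := fun u v => by
  have := e.ne C
  rw [Equiv.Perm.inv_eq_iff_eq, e]
  change _ = θ (_ * α1 (_ * α1.symm u)) (_ * α2 (_ * α2.symm v))
  simp [this.1, this.2]

theorem Dg.ext (C : Cs h τ N θ lam) (e : Dg θ n c1 c2 α1 α2) (e' : Dg θ m c1 c2 α1 α2) : n = m :=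
  Equiv.ext fun p => by obtain ⟨u, v, rfl⟩ := C.surj p; rw [e, e']

theorem Dg.uniq (C : Cs h τ N θ lam) (e : Dg θ n c1 c2 α1 α2) (e' : Dg θ n d1 d2 β1 β2) :
    (c1 = d1 ∧ c2 = d2) ∧ α1 = β1 ∧ α2 = β2 := by
  have k : c1 = d1 ∧ c2 = d2 := by simpa using C.inj ((e 1 1).symm.trans (e' 1 1))
  obtain ⟨rfl, rfl⟩ := k
  exact ⟨⟨rfl, rfl⟩, RingEquiv.ext fun u => mul_left_cancel₀ (e.ne C).1
    (C.inj ((e u 0).symm.trans (e' u 0))).1, RingEquiv.ext fun u => mul_left_cancel₀ (e.ne C).2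
    (C.inj ((e 0 u).symm.trans (e' 0 u))).2⟩

include h in
theorem pow_two_one {k : ℕ} (e : a ^ 2 ^ k = 1) : a = 1 := by
  induction k with
  | zero => simpa using e
  | succ k ih => exact ih (sq_inj (h := h) (by rw [← pow_two, ← pow_mul, ← pow_succ, e, mul_one]))

theorem Dg.two (C : Cs h τ N θ lam) (e : Dg θ n a b 1 1) {k : ℕ} (k1 : n ^ 2 ^ k = 1) : n = 1 := by
  obtain ⟨⟨e1, e2⟩, -⟩ := (k1 ▸ e.pow (2 ^ k)).uniq C Dg.one
  rw [pow_two_one (h := h) e1, pow_two_one (h := h) e2] at e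
  exact e.ext C Dg.one

theorem Dg.invol (C : Cs h τ N θ lam) (e : Dg θ n c1 c2 α1 α2) (k : n * n = 1) :
    (α1 = τ ∨ α1 = 1 ∧ c1 = 1) ∧ (α2 = τ ∨ α2 = 1 ∧ c2 = 1) := by
  obtain ⟨⟨e1, e2⟩, e3, e4⟩ := (k ▸ e.mul e).uniq C Dg.one
  have : ∀ (c : F) (α : F ≃+* F), c * α c = 1 → α * α = 1 → α = τ ∨ α = 1 ∧ c = 1 := fun c α k1 k2 => by
    by_cases k3 : α = 1
    · exact .inr ⟨k3, sq_inj (h := h) (by simpa [k3] using k1)⟩
    · exact .inl (aut_inv_uniq k3 k2 C.τ1 C.ττ)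
  exact ⟨this _ _ e1 e3, this _ _ e2 e4⟩

/-- the stabiliser of both lines -/
def M0 (C : Cs h τ N θ lam) : Subgroup (Equiv.Perm (F × F)) where
  carrier := {n | n ∈ N ∧ ∃ c1 c2 α1 α2, Dg θ n c1 c2 α1 α2}
  mul_mem' := fun ⟨k, _, _, _, _, e⟩ ⟨k', _, _, _, _, e'⟩ => ⟨mul_mem k k', _, _, _, _, e.mul e'⟩
  one_mem' := ⟨one_mem _, _, _, _, _, Dg.one⟩
  inv_mem' := fun ⟨k, _, _, _, _, e⟩ => ⟨inv_mem k, _, _, _, _, e.inv C⟩

theorem tb_inv : (tb h)⁻¹ = tb h := rfl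

theorem mem_M (C : Cs h τ N θ lam) : n ∈ adj (M0 C) (tb h) ↔ n ∈ M0 C ∨ tb h * n ∈ M0 C :=
  mem_adj (K := M0 C) (fun _ ⟨k, _, _, _, _, e⟩ => ⟨cj_mem C.tN k, _, _, _, _, e.cjt C⟩)
    (tb_sq (h := h) ▸ one_mem _)

theorem M_le (C : Cs h τ N θ lam) : adj (M0 C) (tb h) ≤ N := adj_le (fun _ k => k.1) C.tN

theorem semi (H : Lin h τ N) {φ : F → F} (ad : ∀ u v, φ (u + v) = φ u + φ v)
    (ij : Function.Injective φ) (hs : ∀ a, Nm τ a → ∃ μ, ∀ u, φ (a * u) = μ * φ u) :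
    ∃ (c : F) (α : F ≃+* F), ∀ u, φ u = c * α u := by
  have tt := ττ_apply H.ττ
  have φ0 : φ 0 = 0 := by simpa using ad 0 0
  let S : F → Prop := fun a => ∃ μ, ∀ u, φ (a * u) = μ * φ u
  have Sa : ∀ a b, S a → S b → S (a + b) := fun a b ⟨μ, e⟩ ⟨ν, e'⟩ =>
    ⟨μ + ν, fun u => by rw [add_mul, ad, e, e', add_mul]⟩
  have Sm : ∀ a b, S a → S b → S (a * b) := fun a b ⟨μ, e⟩ ⟨ν, e'⟩ =>
    ⟨μ * ν, fun u => by rw [mul_assoc, e, e', mul_assoc]⟩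
  have S1 : ∀ c, c + τ c = 1 → S c := fun c e => by
    have c0 : c ≠ 0 := fun k => by simp [k] at e
    have c1 : τ c ≠ 0 := by simpa using c0
    obtain ⟨μ, k⟩ := Sa _ _ (hs 1 Nm.one) (hs (τ c / c) (by rw [Nm, map_div₀, tt]; field_simp))
    have e1 : (1 + τ c / c) * c = 1 := by rw [add_mul, one_mul, div_mul_cancel₀ _ c0, e]
    have μ0 : μ ≠ 0 := fun k0 => one_ne_zero (ij (by rw [← e1, k, k0, zero_mul, φ0]))
    exact ⟨μ⁻¹, fun u => by rw [eq_inv_mul_iff_mul_eq₀ μ0, ← k, ← mul_assoc, e1, one_mul]⟩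
  obtain ⟨ω, hω⟩ := fix_trace h H.τ1 H.ττ (map_one τ)
  have S0 : ∀ b, τ b = b → S b := fun b e => by
    have := Sa _ _ (S1 ω hω.symm) (S1 (ω + b) (by rw [map_add, e]; linear_combination b * h - hω))
    rwa [show ω + (ω + b) = b by linear_combination ω * h] at this
  have Sall : ∀ c, S c := fun c => by
    have := Sa _ _ (S0 (c + (c + τ c) * ω) (by
      rw [map_add, map_mul, map_add, tt]
      linear_combination (τ c - (c + τ c) * ω) * h - (c + τ c) * hω))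
      (Sm _ _ (S0 (c + τ c) (by rw [map_add, tt, add_comm])) (S1 ω hω.symm))
    rwa [show c + (c + τ c) * ω + (c + τ c) * ω = c by linear_combination (c + τ c) * ω * h] at this
  choose μ hμ using Sall
  have φ1 : φ 1 ≠ 0 := fun k => one_ne_zero (ij (k.trans φ0.symm))
  have e : ∀ u, φ u = μ u * φ 1 := fun u => by rw [← hμ, mul_one]
  let f : F →+* F :=
    { toFun := μ
      map_one' := mul_right_cancel₀ φ1 (by rw [← e, one_mul])
      map_mul' := fun a b => mul_right_cancel₀ φ1 (by rw [← e, hμ, e, mul_assoc])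
      map_zero' := mul_right_cancel₀ φ1 (by rw [← e, φ0, zero_mul])
      map_add' := fun a b => mul_right_cancel₀ φ1 (by rw [← e, ad, add_mul, ← e, ← e]) }
  exact ⟨φ 1, RingEquiv.ofBijective f (Finite.injective_iff_bijective.1 f.injective), fun u =>
    (e u).trans (mul_comm _ _)⟩

theorem semi' (H : Lin h τ N) {ι : F → F × F} (ad : ∀ u v, ι (u + v) = ι u + ι v)
    (ij : Function.Injective ι) (hn : n ∈ N) (hL : ∀ u, ∃ u', n (ι u) = ι u')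
    (hs : ∀ a, Nm τ a → ∃ μ, ∀ u u', n (ι u) = ι u' → n (ι (a * u)) = ι (μ * u')) :
    ∃ (c : F) (α : F ≃+* F), ∀ u, n (ι u) = ι (c * α u) := by
  choose φ e using hL
  obtain ⟨c, α, k⟩ := semi H (φ := φ) (fun u v => ij (by rw [← e, ad, ad, H.add n hn, e, e]))
    (fun u v k => ij (n.injective (by rw [e, e, k]))) fun a k =>
      (hs a k).imp fun μ k u => ij (by rw [← e, k u _ (e u)])
  exact ⟨c, α, fun u => by rw [e, k]⟩

theorem split (C : Cs h τ N θ lam) (u v : F) : θ u v = θ u 0 + θ 0 v := by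
  rw [← C.add', add_zero, zero_add]

theorem memM0 (C : Cs h τ N θ lam) (hn : n ∈ N)
    (H : ∀ r a b, r ∈ N → Nm τ a → Nm τ b → Dg θ r a b 1 1 → ∃ a' b', Dg θ (cj n r) a' b' 1 1)
    (h1 : ∀ u, ∃ u', n (θ u 0) = θ u' 0) (h2 : ∀ u, ∃ u', n (θ 0 u) = θ 0 u') : n ∈ M0 C := by
  obtain ⟨c1, α1, e1⟩ := semi' C.toLin (ι := fun u => θ u 0) (fun u v => by rw [← C.add', add_zero])
    (fun u v e => (C.inj e).1) hn h1 fun a k => by
      obtain ⟨r, hr, e⟩ := C.RN a a k k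
      obtain ⟨a', b', e'⟩ := H r a a hr k k e
      exact ⟨a', fun u u' k => by simpa [e, k, e' u' 0] using (cj_apply n r (θ u 0)).symm⟩
  obtain ⟨c2, α2, e2⟩ := semi' C.toLin (ι := fun u => θ 0 u) (fun u v => by rw [← C.add', add_zero])
    (fun u v e => (C.inj e).2) hn h2 fun a k => by
      obtain ⟨r, hr, e⟩ := C.RN a a k k
      obtain ⟨a', b', e'⟩ := H r a a hr k k e
      exact ⟨b', fun u u' k => by simpa [e, k, e' 0 u'] using (cj_apply n r (θ 0 u)).symm⟩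
  exact ⟨hn, c1, c2, α1, α2, fun u v => by rw [split C, C.add n hn, e1, e2, ← split C]⟩

theorem line (C : Cs h τ N θ lam) (e : Dg θ r a b 1 1) (r1 : r ≠ 1) :
    (∀ p, r p = p → ∃ u, p = θ u 0) ∨ ∀ p, r p = p → ∃ u, p = θ 0 u := by
  have : ∀ c u : F, c ≠ 1 → c * u = u → u = 0 := fun c u k1 k2 =>
    (mul_eq_zero.1 (by linear_combination k2 : (c - 1) * u = 0)).resolve_left (sub_ne_zero.2 k1)
  by_cases b1 : b = 1
  · refine .inr fun p k => ?_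
    obtain ⟨u, v, rfl⟩ := C.surj p
    rw [this a u (fun a1 => r1 (e.ext C (by rw [a1, b1]; exact Dg.one))) (C.inj ((e u v).symm.trans k)).1]
    exact ⟨v, rfl⟩
  · refine .inl fun p k => ?_
    obtain ⟨u, v, rfl⟩ := C.surj p
    rw [this b v b1 (C.inj ((e u v).symm.trans k)).2]
    exact ⟨u, rfl⟩

theorem memM (C : Cs h τ N θ lam) (hn : n ∈ N)
    (H : ∀ r a b, r ∈ N → Nm τ a → Nm τ b → Dg θ r a b 1 1 → ∃ a' b', Dg θ (cj n r) a' b' 1 1) :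
    n ∈ adj (M0 C) (tb h) := by
  obtain ⟨δ, δ1, hδ⟩ := C.ex
  obtain ⟨r1, k1, e1⟩ := C.RN 1 δ Nm.one hδ
  obtain ⟨r2, k2, e2⟩ := C.RN δ 1 hδ Nm.one
  obtain ⟨_, _, e3⟩ := H r1 _ _ k1 Nm.one hδ e1
  obtain ⟨_, _, e4⟩ := H r2 _ _ k2 hδ Nm.one e2
  have f1 : ∀ u, cj n r1 (n (θ u 0)) = n (θ u 0) := fun u => by rw [cj_apply, e1, one_mul, mul_zero]
  have f2 : ∀ u, cj n r2 (n (θ 0 u)) = n (θ 0 u) := fun u => by rw [cj_apply, e2, one_mul, mul_zero]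
  have l1 := line C e3 fun k => δ1 (by rw [cj_eq_one.1 k] at e1; simpa using (C.inj (e1 1 1)).2.symm)
  have l2 := line C e4 fun k => δ1 (by rw [cj_eq_one.1 k] at e2; simpa using (C.inj (e2 1 1)).1.symm)
  have sj : ∀ p, ∃ u v, p = n (θ u 0) + n (θ 0 v) := fun p => by
    obtain ⟨p, rfl⟩ := n.surjective p
    obtain ⟨u, v, rfl⟩ := C.surj p
    exact ⟨u, v, by rw [split C, C.add n hn]⟩
  rw [mem_M]
  rcases l1 with l1 | l1 <;> rcases l2 with l2 | l2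
  · obtain ⟨u, v, e⟩ := sj (θ 0 1)
    obtain ⟨u', e'⟩ := l1 _ (f1 u)
    obtain ⟨v', e''⟩ := l2 _ (f2 v)
    rw [e', e'', ← C.add'] at e
    simpa using (C.inj e).2
  · exact .inl (memM0 C hn H (fun u => l1 _ (f1 u)) fun u => l2 _ (f2 u))
  · refine .inr (memM0 C (mul_mem C.tN hn) (fun r a b hr k k' e => ?_)
      (fun u => (l1 _ (f1 u)).imp fun u' e => by rw [Equiv.Perm.mul_apply, e, C.t_θ])
      fun u => (l2 _ (f2 u)).imp fun u' e => by rw [Equiv.Perm.mul_apply, e, C.t_θ])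
    obtain ⟨a', b', e'⟩ := H r a b hr k k' e
    exact ⟨b', a', mul_cj (tb h) n r ▸ e'.cjt C⟩
  · obtain ⟨u, v, e⟩ := sj (θ 1 0)
    obtain ⟨u', e'⟩ := l1 _ (f1 u)
    obtain ⟨v', e''⟩ := l2 _ (f2 v)
    rw [e', e'', ← C.add'] at e
    simpa using (C.inj e).1

theorem auto2 : True := by
  have := @Dg.eq_1.{0}; have := @Free.eq_1.{0}; have := @M0.eq_1.{0}; trivial

end H25.L2.WrC
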